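import Cfsg.Agent.Lib.TwoPowerFPF.Rank

set_option autoImplicit false
set_option linter.unusedSectionVars false
set_option linter.style.haveILetI false

/-! An element of two-power order without fixed vectors on an irreducible module of a group of class two. -/

namespace Cfsg.Agent.Lib.TwoPowerFPF

open Cfsg.Agent.Lib.HallHigman

universe u v w

variable {K : Type w} {G : Type u} {V : Type v} [Field K] [Group G] [Finite G] [AddCommGroup V] [Module K V]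
  [FiniteDimensional K V]

/-- The displacement of `z` on `Q` modulo scalars is small. -/
theorem displacement [IsAlgClosed K] [Nontrivial V] {q : ℕ} [Fact q.Prime] (ρ : G →* Module.End K V)
    (Q : Subgroup G) (hQ : IsPGroup q Q) (hq2 : q ≠ 2) (hirr : Irred ρ Q)
    (hcomm : ∀ v ∈ Q, ∀ w ∈ Q, IsScalar ρ (v * w * v⁻¹ * w⁻¹))
    (hqK : (q : K) ≠ 0) (h2K : (2 : K) ≠ 0)
    (z : G) {m : ℕ} (hm : m ≠ 0) (hzQ : z ∈ Subgroup.normalizer (Q : Set G)) (hzN : z ^ 2 ^ m = 1)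
    (hfix : ∀ v, ρ z v = v → v = 0)
    (hmoved : ∃ v ∈ Q, ¬ IsScalar ρ (v⁻¹ * (z ^ 2 ^ (m - 1) * v * (z ^ 2 ^ (m - 1))⁻¹))) :
    q + 1 = 2 ^ m ∧ ∃ A : Subgroup Q, (scalars ρ Q).relIndex A ≤ q ^ 2 ∧
      ∀ v : Q, (Q.normalizerMonoidHom ⟨z, hzQ⟩ v) * v⁻¹ ∈ A ⊔ scalars ρ Q := by
  classical
  have hq : q.Prime := Fact.out
  set y := z ^ 2 ^ (m - 1) with hy
  have hy2 : y ^ 2 = 1 := by
    rw [hy, ← pow_mul, ← pow_succ, Nat.sub_add_cancel (Nat.one_le_iff_ne_zero.mpr hm), hzN]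
  have hyy : y * y = 1 := by rw [← sq, hy2]
  have hyi : y⁻¹ = y := by rw [inv_eq_iff_mul_eq_one, hyy]
  have hzy : Commute z y := Commute.self_pow z _
  have hyQ : y ∈ Subgroup.normalizer (Q : Set G) := Subgroup.pow_mem _ hzQ _
  have hyc : ∀ v ∈ Q, y * v * y⁻¹ ∈ Q := fun v hv => (Subgroup.mem_normalizer_iff.mp hyQ v).mp hv
  let cy : G → G := fun v => v⁻¹ * (y * v * y⁻¹)
  have hcyQ : ∀ v ∈ Q, cy v ∈ Q := fun v hv => Q.mul_mem (Q.inv_mem hv) (hyc v hv)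
  set Q1 := Subgroup.closure (cy '' (Q : Set G)) with hQ1
  have hQ1Q : Q1 ≤ Q := by
    rw [hQ1, Subgroup.closure_le]
    rintro _ ⟨v, hv, rfl⟩
    exact hcyQ v hv
  have hcy1 : ∀ v ∈ Q, cy v ∈ Q1 := fun v hv => Subgroup.subset_closure ⟨v, hv, rfl⟩
  have hcyinv : ∀ v, y * cy v * y⁻¹ = (cy v)⁻¹ := fun v => by
    show y * (v⁻¹ * (y * v * y⁻¹)) * y⁻¹ = (v⁻¹ * (y * v * y⁻¹))⁻¹
    rw [mul_inv_rev, inv_inv, mul_inv_rev, mul_inv_rev, inv_inv, hyi]
    calc y * (v⁻¹ * (y * v * y)) * y = y * v⁻¹ * y * v * (y * y) := by group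
      _ = _ := by rw [hyy]; group
  -- square roots of the commutators
  have hroot : ∀ v ∈ Q, ∃ f ∈ Q1, f * f = cy v ∧ y * f * y⁻¹ = f⁻¹ := by
    intro v hv
    obtain ⟨e, he⟩ := hQ ⟨cy v, hcyQ v hv⟩
    obtain ⟨b, hb⟩ := ((hq.odd_of_ne_two hq2).pow : Odd (q ^ e))
    refine ⟨cy v ^ (b + 1), Q1.pow_mem (hcy1 v hv) _, ?_, ?_⟩
    · rw [← pow_add, show b + 1 + (b + 1) = q ^ e + 1 by omega, pow_succ,
        show cy v ^ q ^ e = 1 from congrArg Subtype.val he, one_mul]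
    · rw [← conj_pow, hcyinv, inv_pow]
  -- decomposition into fixed elements and `Q1`
  have hdecomp : ∀ v ∈ Q, ∃ g ∈ Q, y * g * y⁻¹ = g ∧ ∃ f ∈ Q1, v = g * f := by
    intro v hv
    obtain ⟨f, hf, hff, hfy⟩ := hroot v hv
    refine ⟨v * f, Q.mul_mem hv (hQ1Q hf), ?_, f⁻¹, Q1.inv_mem hf, (mul_inv_cancel_right _ _).symm⟩
    calc y * (v * f) * y⁻¹ = (y * v * y⁻¹) * (y * f * y⁻¹) := by group
      _ = v * (f * f) * f⁻¹ := by rw [hfy, hff]; show _ = v * (v⁻¹ * (y * v * y⁻¹)) * f⁻¹; group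
      _ = v * f := by group
  have hgen1 : Subgroup.closure ((fun v => v⁻¹ * (z ^ 2 ^ (m - 1) * v * (z ^ 2 ^ (m - 1))⁻¹)) '' (Q1 : Set G)) = Q1 := by
    refine le_antisymm ?_ ?_
    · rw [Subgroup.closure_le]
      rintro _ ⟨v, hv, rfl⟩
      exact hcy1 v (hQ1Q hv)
    · rw [hQ1, Subgroup.closure_le]
      rintro _ ⟨v, hv, rfl⟩
      obtain ⟨f, hf, hff, hfy⟩ := hroot v hv
      refine Subgroup.subset_closure ⟨f⁻¹, Q1.inv_mem hf, ?_⟩
      show (f⁻¹)⁻¹ * (y * f⁻¹ * y⁻¹) = cy v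
      rw [inv_inv, show y * f⁻¹ * y⁻¹ = (y * f * y⁻¹)⁻¹ by group, hfy, inv_inv, hff]
  have hzQ1 : z ∈ Subgroup.normalizer (Q1 : Set G) := by
    refine mem_normalizer_of_map ?_
    rw [hQ1, MonoidHom.map_closure]
    congr 1
    ext g
    have hg : ∀ v, z * cy v * z⁻¹ = cy (z * v * z⁻¹) := fun v => by
      show z * (v⁻¹ * (y * v * y⁻¹)) * z⁻¹ = (z * v * z⁻¹)⁻¹ * (y * (z * v * z⁻¹) * y⁻¹)
      have h1 : y * z = z * y := hzy.symm.eq
      have h2 : z⁻¹ * y⁻¹ = y⁻¹ * z⁻¹ := by rw [← mul_inv_rev, ← mul_inv_rev, h1]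
      calc z * (v⁻¹ * (y * v * y⁻¹)) * z⁻¹ = z * v⁻¹ * z⁻¹ * ((z * y) * v * (y⁻¹ * z⁻¹)) := by group
        _ = z * v⁻¹ * z⁻¹ * ((y * z) * v * (z⁻¹ * y⁻¹)) := by rw [h1, h2]
        _ = _ := by group
    constructor
    · rintro ⟨_, ⟨v, hv, rfl⟩, rfl⟩
      exact ⟨z * v * z⁻¹, (Subgroup.mem_normalizer_iff.mp hzQ v).mp hv, (hg v).symm⟩
    · rintro ⟨v, hv, rfl⟩
      refine ⟨cy (z⁻¹ * v * z), ⟨z⁻¹ * v * z, ?_, rfl⟩, ?_⟩
      · refine (Subgroup.mem_normalizer_iff.mp hzQ _).mpr ?_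
        rwa [show z * (z⁻¹ * v * z) * z⁻¹ = v by group]
      · show z * cy (z⁻¹ * v * z) * z⁻¹ = cy v
        rw [hg]; congr 1; group
  -- fixed elements commute with `Q1`
  have hgQ1 : ∀ g ∈ Q, y * g * y⁻¹ = g → ∀ t ∈ Q1, ρ g * ρ t = ρ t * ρ g := by
    intro g hg hgy t ht
    rw [hQ1] at ht
    induction ht using Subgroup.closure_induction with
    | mem t ht =>
      obtain ⟨w, hw, rfl⟩ := ht
      exact commute_of_fixed hcomm hg (by rw [hgy]) hw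
    | one => rw [map_one, one_mul, mul_one]
    | mul a b _ _ iha ihb => rw [map_mul, ← mul_assoc, iha, mul_assoc, ihb, ← mul_assoc]
    | inv a _ iha =>
      calc ρ g * ρ a⁻¹ = (ρ a⁻¹ * ρ a) * ρ g * ρ a⁻¹ := by rw [← map_mul ρ a⁻¹, inv_mul_cancel, map_one, one_mul]
        _ = ρ a⁻¹ * (ρ g * ρ a) * ρ a⁻¹ := by rw [iha]; simp only [mul_assoc]
        _ = ρ a⁻¹ * ρ g := by
          rw [mul_assoc, mul_assoc, ← map_mul ρ a, mul_inv_cancel, map_one, mul_one]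
  -- a stable simple subspace for `Q1`
  obtain ⟨W0, hW0⟩ := exists_simpleSub ρ Q1
  have hiso : IsoTo ρ Q1 W0 (W0.map (ρ z)) := by
    set A := W0.map (ρ z)
    have hA : SimpleSub ρ Q1 A := hW0.map hzQ1
    obtain ⟨C, hC, -, hdisj, hsup⟩ := exists_compl_sub (ρ := ρ) Q1 (card_ne_zero (hQ.to_le hQ1Q) hqK) hA.2.1
      (fun _ _ _ _ => Submodule.mem_top : Inv ρ Q1 ⊤) le_top
    rw [sup_comm] at hsup
    obtain ⟨g, hg, hgy, hgC⟩ : ∃ g ∈ Q, y * g * y⁻¹ = g ∧ ¬ W0.map (ρ g) ≤ C := by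
      by_contra hall
      push Not at hall
      let S : Submodule K V :=
        { carrier := {w | ∀ v ∈ Q, ρ v w ∈ C}
          zero_mem' := fun v _ => by rw [map_zero]; exact C.zero_mem
          add_mem' := fun {a b} ha hb v hv => by rw [map_add]; exact C.add_mem (ha v hv) (hb v hv)
          smul_mem' := fun c a ha v hv => by rw [map_smul]; exact C.smul_mem c (ha v hv) }
      have hSinv : Inv ρ Q S := fun t ht w hw v hv => by rw [← rho_mul]; exact hw _ (Q.mul_mem hv ht)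
      have hW0S : W0 ≤ S := by
        intro w hw v hv
        obtain ⟨g, hg, hgy, f, hf, rfl⟩ := hdecomp v hv
        rw [rho_mul]
        exact hall g hg hgy (Submodule.mem_map_of_mem (hW0.2.1 f hf w hw))
      rcases hirr S hSinv with h | h
      · exact hW0.1 (le_bot_iff.mp (h ▸ hW0S))
      · apply hA.1
        have hCtop : C = ⊤ := top_le_iff.mp fun w _ => by
          have := (h.ge (Submodule.mem_top : w ∈ ⊤) : w ∈ S) 1 Q.one_mem
          rwa [map_one] at this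
        have := disjoint_iff.mp hdisj
        rwa [hCtop, top_inf_eq] at this
    have h1 : IsoTo ρ Q1 W0 (W0.map (ρ g)) := by
      refine ⟨(ρ g).comp W0.subtype, (rho_injective g).comp W0.injective_subtype, ?_, fun t ht a _ => ?_⟩
      · rw [LinearMap.range_comp, Submodule.range_subtype]
      · exact (LinearMap.congr_fun (hgQ1 g hg hgy t ht) (a : V))
    have hgs : SimpleSub ρ Q1 (W0.map (ρ g)) := by
      refine ⟨fun h => hW0.1 ?_, ?_, fun U hU hUi => ?_⟩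
      · have h2 := congrArg (Submodule.map (ρ g⁻¹)) h
        rwa [map_map_rho, inv_mul_cancel, map_rho_one, Submodule.map_bot] at h2
      · rintro t ht _ ⟨w, hw, rfl⟩
        exact ⟨ρ t w, hW0.2.1 t ht w hw, LinearMap.congr_fun (hgQ1 g hg hgy t ht) w⟩
      · have hgy' : y * g⁻¹ * y⁻¹ = g⁻¹ := by
          rw [show y * g⁻¹ * y⁻¹ = (y * g * y⁻¹)⁻¹ by group, hgy]
        have h2 : U.map (ρ g⁻¹) ≤ W0 := by
          rw [← map_rho_one (ρ := ρ) W0, ← inv_mul_cancel g, ← map_map_rho]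
          exact Submodule.map_mono hU
        have h3 : Inv ρ Q1 (U.map (ρ g⁻¹)) := by
          rintro t ht _ ⟨w, hw, rfl⟩
          exact ⟨ρ t w, hUi t ht w hw, LinearMap.congr_fun (hgQ1 g⁻¹ (Q.inv_mem hg) hgy' t ht) w⟩
        rcases hW0.2.2 _ h2 h3 with h4 | h4
        · left
          rw [← map_rho_one (ρ := ρ) U, ← mul_inv_cancel g, ← map_map_rho, h4, Submodule.map_bot]
        · right
          rw [← h4, map_map_rho, mul_inv_cancel, map_rho_one]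
    exact h1.trans hW0.2.1 (isoTo_proj hA hgs hC hdisj.symm hsup hgC)
  obtain ⟨W1, hW1, hW1z⟩ := exists_stable hzQ1 hW0 hiso
  haveI : Nontrivial W1 := Submodule.nontrivial_iff_ne_bot.mpr hW1.1
  set H := stab ρ W1
  have hQH : Q1 ≤ H := inv_iff_le_stab.mp hW1.2.1
  have hzH : z ∈ H := hW1z
  have hyH : y ∈ H := H.pow_mem hzH _
  have hInv : Inv ρ H W1 := fun g hg v hv => apply_mem_of_mem_stab hg hv
  set ρ1 := restr ρ H W1 hInv with hρ1
  set Q1H := Q1.subgroupOf H with hQ1H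
  have hQ1p : IsPGroup q Q1H := (hQ.to_le hQ1Q).of_equiv (Subgroup.subgroupOfEquivOfLe hQH).symm
  have hirr1 : Irred ρ1 Q1H := by
    intro U hU
    rcases hW1.2.2 (U.map W1.subtype) (Submodule.map_subtype_le W1 U) (by
      rintro g hg _ ⟨w, hw, rfl⟩
      exact ⟨_, hU ⟨g, hQH hg⟩ hg w hw, rfl⟩) with h | h
    · left
      refine Submodule.map_injective_of_injective W1.injective_subtype ?_
      rw [h, Submodule.map_bot]
    · right
      refine Submodule.map_injective_of_injective W1.injective_subtype ?_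
      rw [h, Submodule.map_subtype_top]
  have hres : ∀ v : H, IsScalar ρ (v : G) → IsScalar ρ1 v := by
    rintro v ⟨s, hs⟩
    refine ⟨s, LinearMap.ext fun w => Subtype.ext ?_⟩
    rw [hρ1, restr_coe, hs]
    rfl
  -- scalars on `W1` are scalars
  obtain ⟨w1, hw1, hw1ne⟩ := (Submodule.ne_bot_iff W1).mp hW1.1
  have hlift : ∀ v : H, (v : G) ∈ Q1 → IsScalar ρ1 v → IsScalar ρ (v : G) := by
    rintro ⟨a, haH⟩ ha ⟨s, hs⟩
    change a ∈ Q1 at ha
    have hsa : ∀ w ∈ W1, ρ a w = s • w := fun w hw => congrArg Subtype.val (LinearMap.congr_fun hs ⟨w, hw⟩)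
    refine schur hirr _ fun v hv => ?_
    obtain ⟨g, hg, hgy, f, hf, rfl⟩ := hdecomp v hv
    have hfa : ρ f * ρ a = ρ a * ρ f := by
      obtain ⟨t, ht⟩ := hcomm f (hQ1Q hf) a (hQ1Q ha)
      have h1 : ρ f (ρ a w1) = t • ρ a (ρ f w1) := by
        rw [← rho_mul, show f * a = f * a * f⁻¹ * a⁻¹ * (a * f) by group, rho_mul, ht, rho_mul]
        rfl
      rw [hsa w1 hw1, map_smul, hsa _ (hW1.2.1 f hf w1 hw1), smul_smul] at h1
      have hne : ρ f w1 ≠ 0 := fun h => hw1ne (rho_injective f (by rw [h, map_zero]))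
      have h2 := smul_left_injective K hne h1
      have hs0 : s ≠ 0 := fun h => hw1ne (rho_injective a (by rw [hsa w1 hw1, h, zero_smul, map_zero]))
      have ht1 : t = 1 := (mul_eq_right₀ hs0).mp h2.symm
      rw [← map_mul, show f * a = f * a * f⁻¹ * a⁻¹ * (a * f) by group, map_mul, ht, ht1, one_smul, one_mul,
        map_mul]
    show ρ (g * f) * ρ a = ρ a * ρ (g * f)
    rw [map_mul, mul_assoc, hfa, ← mul_assoc, hgQ1 g hg hgy a ha, mul_assoc]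
  have hzQ1' : (⟨z, hzH⟩ : H) ∈ Subgroup.normalizer (Q1H : Set H) := by
    rw [Subgroup.mem_normalizer_iff]
    exact fun h => Subgroup.mem_normalizer_iff.mp hzQ1 (h : G)
  have hgenH : Subgroup.closure ((fun v => v⁻¹ * ((⟨z, hzH⟩ : H) ^ 2 ^ (m - 1) * v *
      ((⟨z, hzH⟩ : H) ^ 2 ^ (m - 1))⁻¹)) '' (Q1H : Set H)) = Q1H := by
    refine Subgroup.map_injective H.subtype_injective ?_
    rw [MonoidHom.map_closure, hQ1H, Subgroup.map_subgroupOf_eq_of_le hQH]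
    refine Eq.trans ?_ hgen1
    congr 1
    ext g
    constructor
    · rintro ⟨_, ⟨v, hv, rfl⟩, rfl⟩
      exact ⟨(v : G), hv, rfl⟩
    · rintro ⟨v, hv, rfl⟩
      exact ⟨_, ⟨⟨v, hQH hv⟩, hv, rfl⟩, rfl⟩
  have hcomm1 : ∀ v ∈ Q1H, ∀ w ∈ Q1H, IsScalar ρ1 (v * w * v⁻¹ * w⁻¹) := fun v hv w hw =>
    hres _ (hcomm _ (hQ1Q hv) _ (hQ1Q hw))
  obtain ⟨hidx1, hb3, hclass⟩ := count_gen ρ1 Q1H hQ1p hq2 hirr1 hcomm1 hqK h2K ⟨z, hzH⟩ hm hzQ1'
    (Subtype.ext hzN) hgenH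
  have hNK : ((2 ^ m : ℕ) : K) ≠ 0 := by rw [Nat.cast_pow]; exact pow_ne_zero m (by exact_mod_cast h2K)
  have hF1 : (⟨z, hzH⟩ : H) ^ 2 ^ m = 1 := Subtype.ext hzN
  have hb1 := FitHeight.sq_le_mul_finrank_centralizer hNK (F := ρ1 ⟨z, hzH⟩) (by rw [← map_pow, hF1, map_one])
    (sum_pow_eq_zero (by rw [← map_pow, hF1, map_one]) fun w hw => Subtype.ext (hfix _ (congrArg Subtype.val hw)))
  have hb2 := (finrank_centralizer_ge ρ1 ⟨z, hzH⟩ hF1 hNK).1
  have hD2 : 2 ≤ Module.finrank K W1 := by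
    by_contra hlt
    have h1 : Module.finrank K W1 = 1 := by
      have := Module.finrank_pos (R := K) (M := W1); omega
    obtain ⟨v, hv, hvne⟩ := hmoved
    apply hvne
    have he1 : cy v ∈ Q1 := hcy1 v hv
    refine hlift ⟨cy v, hQH he1⟩ he1 ⟨1, ?_⟩
    have h2 : ρ1 ((⟨y, hyH⟩ : H) * ⟨cy v, hQH he1⟩ * (⟨y, hyH⟩ : H)⁻¹) = ρ1 ⟨cy v, hQH he1⟩ := by
      rw [map_mul, map_mul, commute_of_finrank_one h1, ← mul_assoc, ← map_mul ρ1 (⟨y, hyH⟩ : H)⁻¹,
        inv_mul_cancel, map_one, one_mul]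
    rw [show (⟨y, hyH⟩ : H) * ⟨cy v, hQH he1⟩ * (⟨y, hyH⟩ : H)⁻¹ = (⟨cy v, hQH he1⟩ : H)⁻¹ from
      Subtype.ext (hcyinv v)] at h2
    have h3 : ρ1 (⟨cy v, hQH he1⟩ : H) ^ 2 = 1 := by
      rw [sq]
      nth_rw 1 [← h2]
      rw [← map_mul, inv_mul_cancel, map_one]
    obtain ⟨e, he⟩ := hQ ⟨cy v, hcyQ v hv⟩
    have h4 : ρ1 (⟨cy v, hQH he1⟩ : H) ^ q ^ e = 1 := by
      rw [← map_pow, show (⟨cy v, hQH he1⟩ : H) ^ q ^ e = 1 from Subtype.ext (congrArg Subtype.val he :), map_one]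
    have h5 := pow_gcd_eq_one.mpr ⟨h3, h4⟩
    rw [show Nat.gcd 2 (q ^ e) = 1 from
      Nat.Coprime.pow_right e ((Nat.coprime_primes Nat.prime_two hq).mpr hq2.symm), pow_one] at h5
    rw [h5, one_smul]
  have hDN := dim_eq hD2 hb1 hb2 hb3
  obtain ⟨j, hj⟩ := finrank_eq_prime_pow ρ1 Q1H hQ1p hirr1
  obtain ⟨rfl, -⟩ := exponent_one hq hq2 (hj ▸ hD2) (hj ▸ hDN)
  rw [pow_one] at hj
  have hqm : q + 1 = 2 ^ m := hj ▸ hDN
  refine ⟨hqm, Q1.subgroupOf Q, ?_, ?_⟩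
  all_goals set A := Q1.subgroupOf Q with hA
  all_goals set F := fixMod ρ Q hyQ hcomm with hF
  all_goals
    have hcommQ : ∀ a b : Q, a * b * a⁻¹ * b⁻¹ ∈ scalars ρ Q := fun a b => hcomm _ a.2 _ b.2
  all_goals
    have hidxA : (scalars ρ Q).relIndex A = q ^ 2 := by
      rw [← hj, ← hidx1]
      let e : Q1H ≃* A := (Subgroup.subgroupOfEquivOfLe hQH).trans (Subgroup.subgroupOfEquivOfLe hQ1Q).symm
      show ((scalars ρ Q).subgroupOf A).index = _
      rw [← Subgroup.index_comap_of_surjective (f := e.toMonoidHom) _ e.surjective]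
      congr 1
      ext v
      exact ⟨fun h => hres (v : H) h, fun h => hlift (v : H) v.2 h⟩
  · exact hidxA.le
  · intro v
    obtain ⟨hidx, -, hcount⟩ := count ρ Q hQ hq2 hirr hcomm hqK h2K z hm hzQ hzN
    have hMF : scalars ρ Q ≤ F := fun a ha => by
      refine mem_fixMod.mpr ?_
      obtain ⟨s, hs⟩ := ha
      refine ⟨1, ?_⟩
      rw [map_mul, map_mul, map_mul, hs, mul_smul_comm, mul_one, smul_mul_assoc, ← map_mul ρ y, mul_inv_cancel,
        map_one, ← hs, ← map_mul, inv_mul_cancel, map_one, one_smul]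
    have hFn : F.Normal := ⟨fun a ha g => by
      rw [show g * a * g⁻¹ = g * a * g⁻¹ * a⁻¹ * a by group]
      exact F.mul_mem (hMF (hcommQ g a)) ha⟩
    have hAF : A ⊔ F = ⊤ := by
      refine top_le_iff.mp fun b _ => ?_
      obtain ⟨g, hg, hgy, f, hf, hb⟩ := hdecomp b b.2
      rw [show b = (⟨g, hg⟩ : Q) * ⟨f, hQ1Q hf⟩ from Subtype.ext hb]
      refine Subgroup.mul_mem _ (Subgroup.mem_sup_right ?_) (Subgroup.mem_sup_left hf)
      refine mem_fixMod.mpr ?_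
      exact ⟨1, by rw [hgy, inv_mul_cancel, map_one, one_smul]⟩
    have hinf : F ⊓ A = scalars ρ Q ⊓ A := by
      refine le_antisymm (fun a ha => ⟨?_, ha.2⟩) (inf_le_inf_right _ hMF)
      obtain ⟨haF, haA⟩ := ha
      replace haF := mem_fixMod.mp haF
      exact hlift ⟨(a : G), hQH haA⟩ haA (hclass ⟨(a : G), hQH haA⟩ haA (hres _ haF))
    have hFidx : F.index = q ^ 2 := by
      rw [← hidxA, ← Subgroup.inf_relIndex_right, ← hinf, Subgroup.inf_relIndex_right,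
        ← Subgroup.relIndex_top_right, ← hAF, Subgroup.relIndex_sup_right]
    set fc := (scalars ρ Q).relIndex F with hfc
    have hM : (scalars ρ Q).index = fc * q ^ 2 := by rw [← hFidx, Subgroup.relIndex_mul_index hMF]
    have hC : q * fc ≤ Module.finrank K (Subalgebra.centralizer K ({ρ z} : Set (Module.End K V))) := by
      have h := FitHeight.sq_le_mul_finrank_centralizer hNK (F := ρ z) (by rw [← map_pow, hzN, map_one])
        (sum_pow_eq_zero (by rw [← map_pow, hzN, map_one]) hfix)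
      rw [← hidx, hM, ← hqm, Nat.add_sub_cancel] at h
      refine Nat.le_of_mul_le_mul_left ?_ hq.pos
      linarith [h]
    have hnomove : ∀ g ∈ Q, y * g * y⁻¹ = g → IsScalar ρ (g⁻¹ * (z * g * z⁻¹)) := by
      intro g hg hgy
      by_contra hne
      have h := hcount ⟨g, hg, ⟨1, by rw [hgy, inv_mul_cancel, map_one, one_smul]⟩, hne⟩
      rw [hM, ← hqm] at h
      have h1 := Nat.mul_le_mul_left (q + 1) hC
      nlinarith
    obtain ⟨g, hg, hgy, f, hf, hv⟩ := hdecomp v v.2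
    have hSn : (A ⊔ scalars ρ Q).Normal := ⟨fun a ha b => by
      rw [show b * a * b⁻¹ = b * a * b⁻¹ * a⁻¹ * a by group]
      exact Subgroup.mul_mem _ (Subgroup.mem_sup_right (hcommQ b a)) ha⟩
    have hzf : z * f * z⁻¹ * f⁻¹ ∈ Q1 :=
      Q1.mul_mem ((Subgroup.mem_normalizer_iff.mp hzQ1 f).mp hf) (Q1.inv_mem hf)
    let gQ : Q := ⟨g, hg⟩
    let sQ : Q := gQ⁻¹ * Q.normalizerMonoidHom ⟨z, hzQ⟩ gQ
    let fQ : Q := ⟨z * f * z⁻¹ * f⁻¹, hQ1Q hzf⟩
    have hs : sQ ∈ scalars ρ Q := hnomove g hg hgy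
    rw [show Q.normalizerMonoidHom ⟨z, hzQ⟩ v * v⁻¹ = gQ * (sQ * fQ) * gQ⁻¹ from Subtype.ext (by
      show z * (v : G) * z⁻¹ * (v : G)⁻¹ = g * (g⁻¹ * (z * g * z⁻¹) * (z * f * z⁻¹ * f⁻¹)) * g⁻¹
      rw [hv]; group)]
    exact hSn.conj_mem _ (Subgroup.mul_mem _ (Subgroup.mem_sup_right hs) (Subgroup.mem_sup_left hzf)) _

end Cfsg.Agent.Lib.TwoPowerFPF
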