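import Cfsg.Agent.Lib.TwoPowerFPF.Rank
import Cfsg.Agent.Lib.HallHigman.Faithful
import Mathlib.LinearAlgebra.TensorProduct.Basis
import Mathlib.FieldTheory.IsAlgClosed.AlgebraicClosure

set_option autoImplicit false
set_option linter.unusedSectionVars false
set_option linter.style.haveILetI false

/-! Automorphisms of odd prime power order of an abelian group, normalised by one with a small displacement. -/

namespace Cfsg.Agent.Lib.TwoPowerFPF

open scoped TensorProduct

universe u

/-- An automorphism of coprime order trivial modulo powers is trivial. -/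
theorem eq_one_of_trivial_mod_pow {X : Type u} [CommGroup X] [Finite X] {q r : ℕ} [Fact q.Prime] [Fact r.Prime]
    (hrq : r ≠ q) (hX : IsPGroup q X) {a : MulAut X} {e : ℕ} (ha : a ^ r ^ e = 1)
    (htriv : ∀ t : X, ∃ s : X, a t = t * s ^ q) : a = 1 := by
  have key : ∀ i : ℕ, ∀ t : X, ∃ s : X, a (t ^ q ^ i) = t ^ q ^ i * s ^ q ^ (i + 1) := by
    intro i t
    obtain ⟨s, hs⟩ := htriv t
    refine ⟨s, ?_⟩
    rw [map_pow, hs, mul_pow, ← pow_mul, ← pow_succ']
  obtain ⟨k, hk⟩ := IsPGroup.iff_card.mp hX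
  suffices h : ∀ d : ℕ, ∀ t : X, a (t ^ q ^ (k - d)) = t ^ q ^ (k - d) by
    exact MulEquiv.ext fun t => by simpa using h k t
  intro d
  induction d with
  | zero =>
    intro t
    have : t ^ q ^ k = 1 := by rw [← hk]; exact pow_card_eq_one'
    rw [Nat.sub_zero, this, map_one]
  | succ d ih =>
    intro t
    rcases Nat.lt_or_ge d k with hlt | hge
    swap
    · rw [show k - (d + 1) = k - d by omega]; exact ih t
    obtain ⟨s, hs⟩ := key (k - (d + 1)) t
    rw [show k - (d + 1) + 1 = k - d by omega] at hs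
    have hiter : ∀ n : ℕ, (a ^ n) (t ^ q ^ (k - (d + 1))) = t ^ q ^ (k - (d + 1)) * (s ^ q ^ (k - d)) ^ n := by
      intro n
      induction n with
      | zero => simp
      | succ n ihn => rw [pow_succ', MulAut.mul_apply, ihn, map_mul, hs, map_pow, ih, pow_succ', mul_assoc]
    have h1 := hiter (r ^ e)
    rw [ha, MulAut.one_apply, left_eq_mul] at h1
    have h2 : (s ^ q ^ (k - d)) ^ q ^ k = 1 := by rw [← hk]; exact pow_card_eq_one'
    have h3 := pow_gcd_eq_one.mpr ⟨h1, h2⟩
    rw [show Nat.gcd (r ^ e) (q ^ k) = 1 from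
      Nat.Coprime.pow e k ((Nat.coprime_primes (Fact.out) (Fact.out)).mpr hrq), pow_one] at h3
    rw [hs, h3, mul_one]

/-- The involution centralises the group of automorphisms. -/
theorem commute_of_displacement {X : Type u} [CommGroup X] [Finite X] {q r : ℕ} [Fact q.Prime] [Fact r.Prime]
    (hq2 : q ≠ 2) (hr2 : r ≠ 2) (hrq : r ≠ q) (hX : IsPGroup q X) (R : Subgroup (MulAut X)) (hR : IsPGroup r R)
    (z : MulAut X) (hzR : z ∈ Subgroup.normalizer (R : Set (MulAut X))) {m : ℕ} (hqm : q + 1 = 2 ^ m)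
    (hzN : z ^ 2 ^ m = 1) (hdisp : (Set.range fun t : X => z t / t).ncard ≤ q ^ 2) :
    ∀ u ∈ R, z ^ 2 ^ (m - 1) * u * (z ^ 2 ^ (m - 1))⁻¹ = u := by
  intro u hu
  classical
  have hq : q.Prime := Fact.out
  have hr : r.Prime := Fact.out
  haveI : Finite (MulAut X) := Finite.of_injective _ DFunLike.coe_injective
  let P0 : Subgroup X := (powMonoidHom q).range
  have hmapP : ∀ a : MulAut X, P0 ≤ P0.comap a.toMonoidHom := by
    rintro a _ ⟨t, rfl⟩
    exact ⟨a t, (map_pow a t q).symm⟩
  let act : MulAut X →* Monoid.End (X ⧸ P0) :=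
    { toFun := fun a => QuotientGroup.map P0 P0 a.toMonoidHom (hmapP a)
      map_one' := MonoidHom.ext fun c => QuotientGroup.induction_on c fun t => rfl
      map_mul' := fun a b => MonoidHom.ext fun c => QuotientGroup.induction_on c fun t => rfl }
  have hexp : ∀ c : X ⧸ P0, c ^ q = 1 := fun c => QuotientGroup.induction_on c fun t => by
    rw [← QuotientGroup.mk_pow, QuotientGroup.eq_one_iff]
    exact ⟨t, rfl⟩
  obtain ⟨i1, i2, ρ, hρ⟩ := HallHigman.exists_linearization (G := MulAut X) (p := q) (X ⧸ P0) hexp act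
  -- the displacement has dimension at most two
  have hrank : Module.finrank (ZMod q) (LinearMap.range (ρ z - 1)) ≤ 2 := by
    have hsurj : ∀ v : LinearMap.range (ρ z - 1), ∃ t : Set.range (fun t : X => z t / t),
        Additive.ofMul (((t : X) : X ⧸ P0)) = (v : Additive (X ⧸ P0)) := by
      rintro ⟨_, w, rfl⟩
      obtain ⟨t, ht⟩ := QuotientGroup.mk_surjective (s := P0) w.toMul
      refine ⟨⟨z t / t, t, rfl⟩, ?_⟩
      show Additive.ofMul ((z t / t : X) : X ⧸ P0) = (ρ z - 1) w
      rw [LinearMap.sub_apply, Module.End.one_apply, show w = Additive.ofMul w.toMul from rfl, hρ, ← ht,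
        ← ofMul_div]
      rfl
    choose f hf using hsurj
    have hinj : Function.Injective f := fun a b h => Subtype.ext (by rw [← hf a, ← hf b, h])
    have h1 := Nat.card_le_card_of_injective f hinj
    rw [Nat.card_coe_set_eq, Module.natCard_eq_pow_finrank (K := ZMod q), Nat.card_zmod] at h1
    exact (Nat.pow_le_pow_iff_right hq.one_lt).mp (h1.trans hdisp)
  -- extend the field
  let K := AlgebraicClosure (ZMod q)
  haveI : CharP K q := charP_of_injective_algebraMap (algebraMap (ZMod q) K).injective q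
  have hcast : ∀ t : ℕ, t.Prime → t ≠ q → (t : K) ≠ 0 := fun t ht hne h =>
    hne ((Nat.prime_dvd_prime_iff_eq hq ht).mp ((CharP.cast_eq_zero_iff K q t).mp h)).symm
  let ρK : MulAut X →* Module.End K (K ⊗[ZMod q] Additive (X ⧸ P0)) :=
    (Module.End.baseChangeHom (ZMod q) K (Additive (X ⧸ P0))).toRingHom.toMonoidHom.comp ρ
  have hρK : ∀ (a : MulAut X) (c : K) (v : Additive (X ⧸ P0)), ρK a (c ⊗ₜ v) = c ⊗ₜ ρ a v := fun a c v => rfl
  have hrankK : Module.finrank K (LinearMap.range (ρK z - 1)) ≤ 2 := by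
    let b := Module.finBasis (ZMod q) (LinearMap.range (ρ z - 1))
    let g : Fin (Module.finrank (ZMod q) (LinearMap.range (ρ z - 1))) → K ⊗[ZMod q] Additive (X ⧸ P0) :=
      fun i => (1 : K) ⊗ₜ (b i : Additive (X ⧸ P0))
    refine le_trans (Submodule.finrank_mono (t := Submodule.span K (Set.range g)) ?_)
      ((finrank_range_le_card g).trans (by rw [Fintype.card_fin]; exact hrank))
    rintro _ ⟨T, rfl⟩
    induction T using TensorProduct.induction_on with
    | zero => rw [map_zero]; exact Submodule.zero_mem _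
    | add a b iha ihb => rw [map_add]; exact Submodule.add_mem _ iha ihb
    | tmul c v =>
      rw [LinearMap.sub_apply, Module.End.one_apply, hρK, ← TensorProduct.tmul_sub]
      have h1 : ρ z v - v = ∑ i, b.repr ⟨(ρ z - 1) v, v, rfl⟩ i • (b i : Additive (X ⧸ P0)) := by
        have h2 := congrArg Subtype.val (b.sum_repr ⟨(ρ z - 1) v, v, rfl⟩)
        rw [Submodule.coe_sum] at h2
        simp only [Submodule.coe_smul] at h2
        rw [h2]
        rfl
      rw [h1, TensorProduct.tmul_sum]
      refine Submodule.sum_mem _ fun i _ => ?_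
      rw [TensorProduct.tmul_smul, ← algebraMap_smul K,
        show c ⊗ₜ[ZMod q] (b i : Additive (X ⧸ P0)) = c • g i by
          rw [TensorProduct.smul_tmul', smul_eq_mul, mul_one],
        smul_smul]
      exact Submodule.smul_mem _ _ (Submodule.subset_span ⟨i, rfl⟩)
  have h2K : (2 : K) ≠ 0 := by exact_mod_cast hcast 2 Nat.prime_two hq2.symm
  have hmain := commute_of_rank (q := q) (r := r) hr2 hrq (hcast r hr hrq) h2K ρK z hqm hzN hrankK R hR hzR u hu
  set a := u⁻¹ * (z ^ 2 ^ (m - 1) * u * (z ^ 2 ^ (m - 1))⁻¹) with ha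
  have hy : z ^ 2 ^ (m - 1) ∈ Subgroup.normalizer (R : Set (MulAut X)) := Subgroup.pow_mem _ hzR _
  have haR : a ∈ R := R.mul_mem (R.inv_mem hu) ((Subgroup.mem_normalizer_iff.mp hy u).mp hu)
  obtain ⟨e, he⟩ := hR ⟨a, haR⟩
  suffices h : a = 1 by
    rw [ha, inv_mul_eq_one] at h
    exact h.symm
  refine eq_one_of_trivial_mod_pow hrq hX (congrArg Subtype.val he) fun t => ?_
  have h1 : ρK a = 1 := by rw [ha, map_mul, hmain, ← map_mul, inv_mul_cancel, map_one]
  let w : Additive (X ⧸ P0) := Additive.ofMul (t : X ⧸ P0)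
  have h2 : (1 : K) ⊗ₜ[ZMod q] ρ a w = (1 : K) ⊗ₜ[ZMod q] w := by
    rw [← hρK, h1]; rfl
  have h3 : ρ a w = w := by
    let b := Module.finBasis (ZMod q) (Additive (X ⧸ P0))
    refine b.repr.injective (Finsupp.ext fun i => ?_)
    have h4 := congrArg (fun T => (b.baseChange K).repr T i) h2
    simp only [Module.Basis.baseChange_repr_tmul] at h4
    exact (algebraMap (ZMod q) K).injective (by simpa [Algebra.algebraMap_eq_smul_one] using h4)
  rw [hρ] at h3
  have h5 : ((a t : X) : X ⧸ P0) = (t : X ⧸ P0) := Additive.ofMul.injective h3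
  obtain ⟨s, hs⟩ := (QuotientGroup.eq.mp h5.symm : t⁻¹ * a t ∈ P0)
  refine ⟨s, ?_⟩
  rw [powMonoidHom_apply] at hs
  rw [hs, mul_inv_cancel_left]

end Cfsg.Agent.Lib.TwoPowerFPF
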