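import Cfsg.Agent.Lib.HallHigman.Rep
import Cfsg.Agent.Lib.HallHigman.TheoremB
import Cfsg.Agent.Lib.InvForms

set_option autoImplicit false
set_option linter.unusedSectionVars false
set_option linter.style.haveILetI false

/-! Tools for a group normalised by a single element: complements and stable simple subspaces. -/

namespace Cfsg.Agent.Lib.TwoPowerFPF

open Cfsg.Agent.Lib.HallHigman

universe u v w

variable {K : Type w} {G : Type u} {V : Type v} [Field K] [Group G] [Finite G] [AddCommGroup V] [Module K V]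
  [FiniteDimensional K V]

omit [Finite G] in
theorem mem_normalizer_of_map {H : Subgroup G} {g : G} (h : H.map (MulAut.conj g).toMonoidHom = H) :
    g ∈ Subgroup.normalizer (H : Set G) :=
  Subgroup.mem_normalizer_iff.mpr fun k => by
    conv_rhs => rw [← h, Subgroup.mem_map_equiv]
    simp [mul_assoc]

omit [Finite G] in
theorem map_of_mem_normalizer {H : Subgroup G} {g : G} (h : g ∈ Subgroup.normalizer (H : Set G)) :
    H.map (MulAut.conj g).toMonoidHom = H := by
  ext k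
  rw [Subgroup.mem_map_equiv, Subgroup.mem_normalizer_iff.mp h ((MulAut.conj g).symm k)]
  simp [mul_assoc]

/-- Maschke for a subgroup. -/
theorem exists_compl_sub {ρ : G →* Module.End K V} (S : Subgroup G) (hS : (Nat.card S : K) ≠ 0)
    {R Y : Submodule K V} (hR : Inv ρ S R) (hY : Inv ρ S Y) (hRY : R ≤ Y) :
    ∃ C, Inv ρ S C ∧ C ≤ Y ∧ Disjoint C R ∧ C ⊔ R = Y := by
  obtain ⟨C, hC, h1, h2, h3⟩ := InvForms.exists_compl (ρ := (ρ.comp S.subtype : Representation K S V)) hS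
    (R := R) (Y := Y) (fun g v hv => hR g g.2 v hv) (fun g v hv => hY g g.2 v hv) hRY
  exact ⟨C, fun m hm v hv => hC ⟨m, hm⟩ v hv, h1, h2, h3⟩

theorem card_sup_zpowers_ne_zero {Q : Subgroup G} {x : G} (hx : x ∈ Subgroup.normalizer (Q : Set G)) {N : ℕ}
    (hxN : x ^ N = 1) (hQ : (Nat.card Q : K) ≠ 0) (hN : (N : K) ≠ 0) :
    (Nat.card (Q ⊔ Subgroup.zpowers x : Subgroup G) : K) ≠ 0 := by
  set S := Q ⊔ Subgroup.zpowers x with hSdef
  have hle : S ≤ Subgroup.normalizer (Q : Set G) := sup_le Subgroup.le_normalizer (Subgroup.zpowers_le.mpr hx)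
  have hxle : Subgroup.zpowers x ≤ Subgroup.normalizer (Q : Set G) := Subgroup.zpowers_le.mpr hx
  have h1 : Q.relIndex S ∣ N := by
    refine dvd_trans ?_ (orderOf_dvd_of_pow_eq_one hxN)
    rw [← Nat.card_zpowers]
    have hqn : (Q.subgroupOf (Subgroup.normalizer (Q : Set G))).Normal := Subgroup.normal_in_normalizer
    have e1 := Subgroup.relIndex_subgroupOf (H := Q) hle
    have e2 := Subgroup.relIndex_subgroupOf (H := Q) hxle
    rw [← e1, show S.subgroupOf (Subgroup.normalizer (Q : Set G)) =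
      Q.subgroupOf _ ⊔ (Subgroup.zpowers x).subgroupOf _ from Subgroup.subgroupOf_sup Subgroup.le_normalizer hxle,
      Subgroup.relIndex_sup_left, e2]
    exact Subgroup.relIndex_dvd_card _ _
  have h2 : Nat.card S = Nat.card Q * Q.relIndex S := by
    rw [← Subgroup.relIndex_bot_left, ← Subgroup.relIndex_bot_left,
      Subgroup.relIndex_mul_relIndex ⊥ Q S bot_le le_sup_left]
  obtain ⟨t, ht⟩ := h1
  rw [h2, Nat.cast_mul]
  refine mul_ne_zero hQ fun h => hN ?_
  rw [ht, Nat.cast_mul, h, zero_mul]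

theorem card_ne_zero {q : ℕ} [Fact q.Prime] {Q : Subgroup G} (hQ : IsPGroup q Q) (hqK : (q : K) ≠ 0) :
    (Nat.card Q : K) ≠ 0 := by
  obtain ⟨e, he⟩ := IsPGroup.iff_card.mp hQ
  rw [he, Nat.cast_pow]
  exact pow_ne_zero e hqK

omit [Finite G] [FiniteDimensional K V] in
theorem inv_sup_zpowers {ρ : G →* Module.End K V} {Q : Subgroup G} {x : G} {N : ℕ} (hN : 0 < N)
    (hxN : x ^ N = 1) {W : Submodule K V} (hW : Inv ρ Q W) (hx : ∀ v ∈ W, ρ x v ∈ W) :
    Inv ρ (Q ⊔ Subgroup.zpowers x) W := by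
  have hpow : ∀ i : ℕ, ∀ v ∈ W, ρ (x ^ i) v ∈ W := by
    intro i
    induction i with
    | zero => intro v hv; rw [pow_zero, map_one]; exact hv
    | succ i ih => intro v hv; rw [pow_succ', rho_mul]; exact hx _ (ih v hv)
  let T : Subgroup G :=
    { carrier := {g | (∀ v ∈ W, ρ g v ∈ W) ∧ ∀ v ∈ W, ρ g⁻¹ v ∈ W}
      one_mem' := ⟨fun v hv => by rw [map_one]; exact hv, fun v hv => by rw [inv_one, map_one]; exact hv⟩
      mul_mem' := fun {a b} ha hb => ⟨fun v hv => by rw [rho_mul]; exact ha.1 _ (hb.1 v hv),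
        fun v hv => by rw [mul_inv_rev, rho_mul]; exact hb.2 _ (ha.2 v hv)⟩
      inv_mem' := fun {a} ha => ⟨ha.2, fun v hv => by rw [inv_inv]; exact ha.1 v hv⟩ }
  have hle : Q ⊔ Subgroup.zpowers x ≤ T := by
    refine sup_le (fun m hm => ⟨hW m hm, hW _ (Q.inv_mem hm)⟩) (Subgroup.zpowers_le.mpr ⟨hx, ?_⟩)
    have h : x⁻¹ = x ^ (N - 1) := by
      rw [inv_eq_iff_mul_eq_one, ← pow_succ', Nat.sub_add_cancel hN, hxN]
    intro v hv
    rw [h]
    exact hpow _ v hv
  exact fun m hm => (hle hm).1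

/-- An equivariant projection gives an isomorphism of simple subspaces. -/
theorem isoTo_proj {ρ : G →* Module.End K V} {M : Subgroup G} {A B C : Submodule K V}
    (hA : SimpleSub ρ M A) (hB : SimpleSub ρ M B) (hC : Inv ρ M C) (hdisj : Disjoint A C) (hsup : A ⊔ C = ⊤)
    (hBC : ¬ B ≤ C) : IsoTo ρ M B A := by
  obtain ⟨π, hπA, hπC⟩ := InvForms.exists_proj hdisj
  have hπ : ∀ m ∈ M, ∀ v, π (ρ m v) = ρ m (π v) := by
    intro m hm v
    obtain ⟨a, ha, c, hc, rfl⟩ := Submodule.mem_sup.mp (hsup.ge (Submodule.mem_top : v ∈ ⊤))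
    rw [map_add, map_add, map_add, hπA _ (hA.2.1 m hm a ha), hπC _ (hC m hm c hc), hπA _ ha, hπC _ hc,
      add_zero, add_zero]
  refine isoTo_of_ne_zero hB hA (π.comp B.subtype) ?_ (fun m hm a _ => hπ m hm a) fun h => hBC fun b hb => ?_
  · intro b
    obtain ⟨a, ha, c, hc, hac⟩ := Submodule.mem_sup.mp (hsup.ge (Submodule.mem_top : (b : V) ∈ ⊤))
    show π (b : V) ∈ A
    rw [← hac, map_add, hπA _ ha, hπC _ hc, add_zero]
    exact ha
  · have h0 : π b = 0 := LinearMap.congr_fun h ⟨b, hb⟩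
    obtain ⟨a, ha, c, hc, hac⟩ := Submodule.mem_sup.mp (hsup.ge (Submodule.mem_top : b ∈ ⊤))
    rw [← hac, map_add, hπA _ ha, hπC _ hc, add_zero] at h0
    rw [← hac, h0, zero_add]
    exact hc

omit [Finite G] [FiniteDimensional K V] in
/-- An isomorphism carries scalar values. -/
theorem IsoTo.scalar {ρ : G →* Module.End K V} {M : Subgroup G} {A B : Submodule K V} (hA : Inv ρ M A)
    (h : IsoTo ρ M A B) {m : G} (hm : m ∈ M) {s : K} (hs : ∀ a ∈ A, ρ m a = s • a) :
    ∀ b ∈ B, ρ m b = s • b := by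
  obtain ⟨f, -, hfr, hfe⟩ := h
  intro b hb
  obtain ⟨a, rfl⟩ : b ∈ LinearMap.range f := hfr ▸ hb
  rw [← hfe m hm a (hA m hm a a.2),
    show (⟨ρ m a, hA m hm a a.2⟩ : A) = s • a from Subtype.ext (hs a a.2), map_smul]

/-- A simple subspace isomorphic to its translate has a fixed isomorphic copy. -/
theorem exists_stable [IsAlgClosed K] {ρ : G →* Module.End K V} {M : Subgroup G} {g : G}
    (hg : g ∈ Subgroup.normalizer (M : Set G)) {U : Submodule K V} (hU : SimpleSub ρ M U)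
    (hE : IsoTo ρ M U (U.map (ρ g))) :
    ∃ W : Submodule K V, SimpleSub ρ M W ∧ W.map (ρ g) = W := by
  classical
  obtain ⟨f0, hf0, hf0r, hf0e⟩ := hE
  have hback : ∀ u : U, ρ g⁻¹ (f0 u) ∈ U := fun u => by
    obtain ⟨w, hw, hwu⟩ : f0 u ∈ U.map (ρ g) := hf0r ▸ LinearMap.mem_range_self f0 u
    rw [← hwu, rho_inv_apply]; exact hw
  let T : U →ₗ[K] U := ((ρ g⁻¹).comp f0).codRestrict U hback
  have hT : Function.Injective T := fun a b h => hf0 (rho_injective _ (congrArg Subtype.val h :))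
  have hTbij : Function.Bijective T := ⟨hT, LinearMap.surjective_of_injective hT⟩
  let Hom : Submodule K (U →ₗ[K] V) :=
    { carrier := {f | ∀ m ∈ M, ∀ a : U, ∀ h : ρ m (a : V) ∈ U, f ⟨ρ m a, h⟩ = ρ m (f a)}
      add_mem' := fun {f f'} hf hf' m hm a h => by
        rw [LinearMap.add_apply, LinearMap.add_apply, hf m hm a h, hf' m hm a h, map_add]
      zero_mem' := fun m _ a _ => by simp
      smul_mem' := fun c f hf m hm a h => by
        rw [LinearMap.smul_apply, LinearMap.smul_apply, hf m hm a h, map_smul] }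
  let Φ : (U →ₗ[K] V) →ₗ[K] (U →ₗ[K] V) :=
    { toFun := fun f => (ρ g).comp (f.comp T)
      map_add' := fun f f' => by ext a; simp
      map_smul' := fun c f => by ext a; simp }
  have hΦ : ∀ f ∈ Hom, Φ f ∈ Hom := by
    intro f hf m hm a h
    show ρ g (f (T ⟨ρ m a, h⟩)) = ρ m (ρ g (f (T a)))
    have h1 : g⁻¹ * m * g ∈ M := by
      simpa using (Subgroup.mem_normalizer_iff.mp (Subgroup.inv_mem _ hg) m).mp hm
    have h2 : T ⟨ρ m a, h⟩ = ⟨ρ (g⁻¹ * m * g) (T a : V), hU.2.1 _ h1 _ (T a).2⟩ := Subtype.ext (by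
      show ρ g⁻¹ (f0 ⟨ρ m a, h⟩) = ρ (g⁻¹ * m * g) (ρ g⁻¹ (f0 a))
      rw [hf0e m hm a h, ← rho_mul, ← rho_mul]
      congr 2
      group)
    rw [h2, hf _ h1, ← rho_mul, ← rho_mul]
    congr 2
    group
  obtain ⟨u0, hu0, hu0ne⟩ := (Submodule.ne_bot_iff U).mp hU.1
  have hsub : U.subtype ∈ Hom := fun m _ a _ => rfl
  haveI : Nontrivial Hom := ⟨⟨⟨U.subtype, hsub⟩, 0, fun h => hu0ne (by
    exact LinearMap.congr_fun (congrArg Subtype.val h) ⟨u0, hu0⟩)⟩⟩
  obtain ⟨lam, hlam⟩ := Module.End.exists_eigenvalue (Φ.restrict hΦ)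
  obtain ⟨f, hf⟩ := hlam.exists_hasEigenvector
  have hfne : (f : U →ₗ[K] V) ≠ 0 := fun h => hf.2 (Subtype.ext h)
  have hfeig : ∀ a : U, ρ g ((f : U →ₗ[K] V) (T a)) = lam • (f : U →ₗ[K] V) a := fun a =>
    LinearMap.congr_fun (congrArg Subtype.val hf.apply_eq_smul) a
  have hlam0 : lam ≠ 0 := by
    intro h0
    apply hfne
    refine LinearMap.ext fun a => ?_
    obtain ⟨b, rfl⟩ := hTbij.2 a
    have h1 : ρ g ((f : U →ₗ[K] V) (T b)) = ρ g 0 := by
      rw [hfeig b, h0, zero_smul, map_zero]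
    exact rho_injective g h1
  set W := LinearMap.range (f : U →ₗ[K] V) with hW
  have hWinv : Inv ρ M W := by
    rintro m hm _ ⟨a, rfl⟩
    exact ⟨⟨ρ m a, hU.2.1 m hm a a.2⟩, f.2 m hm a _⟩
  refine ⟨W, ⟨fun h => hfne (LinearMap.range_eq_bot.mp h), hWinv, fun X hX hXi => ?_⟩, ?_⟩
  · have h1 : Inv ρ M ((X.comap (f : U →ₗ[K] V)).map U.subtype) := by
      rintro m hm _ ⟨a, ha, rfl⟩
      refine ⟨⟨ρ m a, hU.2.1 m hm a a.2⟩, ?_, rfl⟩
      rw [SetLike.mem_coe, Submodule.mem_comap, f.2 m hm a]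
      exact hXi m hm _ ha
    rcases hU.2.2 _ (Submodule.map_subtype_le U _) h1 with h2 | h2
    · left
      rw [eq_bot_iff]
      intro v hv
      obtain ⟨a, rfl⟩ := hX hv
      have h3 : (a : V) ∈ (X.comap (f : U →ₗ[K] V)).map U.subtype := Submodule.mem_map_of_mem hv
      rw [h2, Submodule.mem_bot] at h3
      rw [show a = 0 from Subtype.ext h3, map_zero]
      exact Submodule.zero_mem _
    · right
      refine le_antisymm hX ?_
      rintro _ ⟨a, rfl⟩
      obtain ⟨b, hb, hba⟩ := h2.ge a.2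
      rw [← show b = a from Subtype.ext hba]
      exact hb
  · refine le_antisymm ?_ ?_
    · rintro _ ⟨_, ⟨a, rfl⟩, rfl⟩
      obtain ⟨b, rfl⟩ := hTbij.2 a
      rw [hfeig b]
      exact W.smul_mem _ ⟨b, rfl⟩
    · rintro _ ⟨a, rfl⟩
      exact ⟨(f : U →ₗ[K] V) (lam⁻¹ • T a), ⟨_, rfl⟩, by
        rw [map_smul, map_smul, hfeig a, inv_smul_smul₀ hlam0]⟩

omit [Finite G] [FiniteDimensional K V] in
theorem simpleSub_map_subtype {ρ : G →* Module.End K V} {H Q : Subgroup G} (hQH : Q ≤ H) {U : Submodule K V}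
    (hU : Inv ρ H U) {W : Submodule K U} (hW : SimpleSub (restr ρ H U hU) (Q.subgroupOf H) W) :
    SimpleSub ρ Q (W.map U.subtype) := by
  refine ⟨fun h => hW.1 (Submodule.map_injective_of_injective U.injective_subtype (by
    rw [h, Submodule.map_bot])), ?_, fun X hX hXi => ?_⟩
  · rintro m hm _ ⟨w, hw, rfl⟩
    exact ⟨_, hW.2.1 ⟨m, hQH hm⟩ hm w hw, rfl⟩
  · have hXU : X ≤ U := hX.trans (Submodule.map_subtype_le U W)
    have h1 : (X.comap U.subtype).map U.subtype = X := Submodule.map_comap_eq_of_le (by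
      rwa [Submodule.range_subtype])
    rcases hW.2.2 (X.comap U.subtype) (fun w hw => by
      obtain ⟨w', hw', he⟩ := hX hw
      rwa [← U.injective_subtype he]) (fun m hm w hw => hXi (m : G) hm _ hw) with h | h
    · left; rw [← h1, h, Submodule.map_bot]
    · right; rw [← h1, h]

omit [Finite G] [FiniteDimensional K V] in
theorem map_map_subtype {ρ : G →* Module.End K V} {H : Subgroup G} {U : Submodule K V} (hU : Inv ρ H U) (h : H)
    (W : Submodule K U) : (W.map U.subtype).map (ρ (h : G)) = (W.map (restr ρ H U hU h)).map U.subtype := by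
  rw [← Submodule.map_comp, ← Submodule.map_comp]
  rfl

omit [Finite G] [FiniteDimensional K V] in
theorem sum_pow_eq_zero {A : Module.End K V} {N : ℕ} (hAN : A ^ N = 1) (hfix : ∀ v, A v = v → v = 0) :
    ∑ i ∈ Finset.range N, A ^ i = 0 := by
  refine LinearMap.ext fun v => hfix _ ?_
  rw [← Module.End.mul_apply, Finset.mul_sum]
  congr 1
  have h1 := Finset.sum_range_succ' (fun i => A ^ i) N
  rw [Finset.sum_range_succ, hAN, pow_zero] at h1
  simpa only [← pow_succ'] using (add_right_cancel h1).symm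

omit [Finite G] [FiniteDimensional K V] in
/-- No fixed vectors for `x` give none for the power fixing a component. -/
theorem fixed_eq_zero_of_translates {ρ : G →* Module.End K V} {x : G} {k : ℕ} (hk : 0 < k)
    (hfix : ∀ v, ρ x v = v → v = 0) {W : Submodule K V} (hbij : Function.Injective (translateSum ρ x k W)) :
    ∀ v ∈ W, ρ (x ^ k) v = v → v = 0 := by
  intro v hv hk0
  have h0 : translateSum ρ x k W (fun _ => ⟨v, hv⟩) = translateSum ρ x k W 0 := by
    rw [map_zero, translateSum_apply, Fin.sum_univ_eq_sum_range (fun i => ρ (x ^ i) v)]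
    refine hfix _ ?_
    rw [map_sum]
    simp only [← rho_mul, ← pow_succ']
    have h1 := Finset.sum_range_succ' (fun i => ρ (x ^ i) v) k
    rw [Finset.sum_range_succ, pow_zero, map_one, Module.End.one_apply, hk0] at h1
    exact (add_right_cancel h1).symm
  exact congrArg Subtype.val (congrFun (hbij h0) ⟨0, hk⟩)

/-- `A` is a simple subspace fixed by a power of `x` that has no fixed vector on it. -/
def Good (ρ : G →* Module.End K V) (Q : Subgroup G) (x : G) (n : ℕ) (A : Submodule K V) : Prop :=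
  SimpleSub ρ Q A ∧ ∃ a, a < n ∧ A.map (ρ (x ^ 2 ^ a)) = A ∧ ∀ v ∈ A, ρ (x ^ 2 ^ a) v = v → v = 0

/-- The components of the irreducible subspaces span. -/
theorem eq_top_of_component [IsAlgClosed K] {q : ℕ} [Fact q.Prime] {ρ : G →* Module.End K V} {Q : Subgroup G}
    (hQ : IsPGroup q Q) (hqK : (q : K) ≠ 0) (h2K : (2 : K) ≠ 0) {x : G}
    (hxQ : x ∈ Subgroup.normalizer (Q : Set G)) {n : ℕ} (hxN : x ^ 2 ^ n = 1)
    (S : Submodule K V) (hSQ : Inv ρ Q S) (hSx : ∀ v ∈ S, ρ x v ∈ S)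
    (hS : ∀ (a : ℕ) (A : Submodule K V), a ≤ n → SimpleSub ρ Q A → A.map (ρ (x ^ 2 ^ a)) = A →
      Function.Injective (translateSum ρ x (2 ^ a) A) → A ≤ S) : S = ⊤ := by
  classical
  set L := Q ⊔ Subgroup.zpowers x with hL
  have hN : 0 < 2 ^ n := by positivity
  have hLK : (Nat.card L : K) ≠ 0 := card_sup_zpowers_ne_zero hxQ hxN (card_ne_zero hQ hqK) (by
    rw [Nat.cast_pow]; exact pow_ne_zero n (by exact_mod_cast h2K))
  obtain ⟨C, hC, -, hdisj, hsup⟩ := exists_compl_sub (ρ := ρ) L hLK (inv_sup_zpowers hN hxN hSQ hSx)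
    (fun _ _ _ _ => Submodule.mem_top : Inv ρ L ⊤) le_top
  by_contra hne
  have hCne : C ≠ ⊥ := fun h => hne (by rw [h, bot_sup_eq] at hsup; exact hsup)
  obtain ⟨U, hUC, hU⟩ : ∃ U : Submodule K V, U ≤ C ∧ SimpleSub ρ L U := by
    haveI : Nontrivial C := Submodule.nontrivial_iff_ne_bot.mpr hCne
    obtain ⟨U0, hU0⟩ := exists_simpleSub (restr ρ L C hC) (L.subgroupOf L)
    exact ⟨U0.map C.subtype, Submodule.map_subtype_le C U0, simpleSub_map_subtype le_rfl hC hU0⟩
  haveI : Nontrivial U := Submodule.nontrivial_iff_ne_bot.mpr hU.1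
  set ρU := restr ρ L U hU.2.1 with hρU
  have hQL : Q ≤ L := le_sup_left
  have hxL : x ∈ L := Subgroup.mem_sup_right (Subgroup.mem_zpowers x)
  have hxQ' : (⟨x, hxL⟩ : L) ∈ Subgroup.normalizer ((Q.subgroupOf L) : Set L) := by
    rw [Subgroup.mem_normalizer_iff]
    exact fun h => Subgroup.mem_normalizer_iff.mp hxQ (h : G)
  have hirr : ∀ W : Submodule K U, Inv ρU (Q.subgroupOf L) W → (∀ v ∈ W, ρU ⟨x, hxL⟩ v ∈ W) → W = ⊥ ∨ W = ⊤ := by
    intro W hW hWx
    have h1 : Inv ρ L (W.map U.subtype) := by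
      refine inv_sup_zpowers hN hxN ?_ ?_
      · rintro m hm _ ⟨w, hw, rfl⟩
        exact ⟨_, hW ⟨m, hQL hm⟩ hm w hw, rfl⟩
      · rintro _ ⟨w, hw, rfl⟩
        exact ⟨_, hWx w hw, rfl⟩
    rcases hU.2.2 _ (Submodule.map_subtype_le U W) h1 with h | h
    · left; exact Submodule.map_injective_of_injective U.injective_subtype (by rw [h, Submodule.map_bot])
    · right; exact Submodule.map_injective_of_injective U.injective_subtype (by rw [h, Submodule.map_subtype_top])
  obtain ⟨k, W, hk, hkN, hW, hWfix, hbij⟩ := clifford hxQ' hN (by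
    rw [show (⟨x, hxL⟩ : L) ^ 2 ^ n = 1 from Subtype.ext hxN]; exact one_mem _) hirr
  obtain ⟨a, han, rfl⟩ := (Nat.dvd_prime_pow Nat.prime_two).mp hkN
  have hsimp := simpleSub_map_subtype hQL hU.2.1 hW
  have hmapW : (W.map U.subtype).map (ρ (x ^ 2 ^ a)) = W.map U.subtype := by
    have h := map_map_subtype hU.2.1 ((⟨x, hxL⟩ : L) ^ 2 ^ a) W
    rw [hWfix] at h
    exact h
  have hinj : Function.Injective (translateSum ρ x (2 ^ a) (W.map U.subtype)) := by
    intro c d hcd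
    have hlift : ∀ w : W.map U.subtype, ∃ w' : W, ((w' : U) : V) = w := fun w => by
      obtain ⟨w', hw', he⟩ := w.2
      exact ⟨⟨w', hw'⟩, he⟩
    choose f hf using hlift
    have hsum : ∀ c : Fin (2 ^ a) → W.map U.subtype,
        ((translateSum ρU ⟨x, hxL⟩ (2 ^ a) W (fun i => f (c i)) : U) : V) = translateSum ρ x (2 ^ a) _ c := by
      intro c
      rw [translateSum_apply, translateSum_apply, Submodule.coe_sum]
      refine Finset.sum_congr rfl fun i _ => ?_
      rw [hρU, restr_coe, hf]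
      rfl
    rw [← hsum, ← hsum] at hcd
    have h2 := hbij.1 (Subtype.ext hcd)
    funext i
    refine Subtype.ext ?_
    rw [← hf (c i), ← hf (d i)]
    exact congrArg (fun w : W => ((w : U) : V)) (congrFun h2 i)
  have h1 : W.map U.subtype ≤ S ⊓ C :=
    le_inf (hS a _ han hsimp hmapW hinj) ((Submodule.map_subtype_le U W).trans hUC)
  rw [inf_comm, disjoint_iff.mp hdisj] at h1
  exact hsimp.1 (le_bot_iff.mp h1)

/-- The good subspaces span. -/
theorem eq_top_of_good [IsAlgClosed K] {q : ℕ} [Fact q.Prime] {ρ : G →* Module.End K V} {Q : Subgroup G}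
    (hQ : IsPGroup q Q) (hqK : (q : K) ≠ 0) (h2K : (2 : K) ≠ 0) {x : G}
    (hxQ : x ∈ Subgroup.normalizer (Q : Set G)) {n : ℕ} (hxN : x ^ 2 ^ n = 1) (hfix : ∀ v, ρ x v = v → v = 0)
    (S : Submodule K V) (hSQ : Inv ρ Q S) (hSx : ∀ v ∈ S, ρ x v ∈ S)
    (hS : ∀ A : Submodule K V, Good ρ Q x n A → A ≤ S) : S = ⊤ := by
  refine eq_top_of_component hQ hqK h2K hxQ hxN S hSQ hSx fun a A han hA hmap hinj => hS A ⟨hA, a, ?_, hmap, ?_⟩
  · rcases Nat.eq_or_lt_of_le han with rfl | h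
    · exfalso
      obtain ⟨w, hw, hw0⟩ := (Submodule.ne_bot_iff A).mp hA.1
      refine hw0 (fixed_eq_zero_of_translates (Nat.two_pow_pos a) hfix hinj w hw ?_)
      rw [hxN, map_one]
      rfl
    · exact h
  · exact fixed_eq_zero_of_translates (Nat.two_pow_pos a) hfix hinj

end Cfsg.Agent.Lib.TwoPowerFPF
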