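import Cfsg.Agent.Lib.TwoPowerFPF.Core
import Cfsg.Agent.Lib.ShultGross.Main

set_option autoImplicit false
set_option linter.unusedSectionVars false
set_option linter.style.haveILetI false

/-! An automorphism of two-power order without fixed points: two steps of the Fitting series. -/

namespace Cfsg.Agent.Lib.TwoPowerFPF

open Cfsg
open Cfsg.Agent.Lib.Hall

universe u

variable {Γ : Type u} [Group Γ] [Finite Γ]

/-- The part of the preimage centralising the other cores lies in the Fitting subgroup. -/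
theorem mem_fitting_of_centralizes (N : Subgroup Γ) [N.Normal] {q : ℕ} [Fact q.Prime] (M : Subgroup Γ) [M.Normal]
    (hMN : M ≤ N) (hMq : ∀ g ∈ M, ∃ i : ℕ, g ^ q ^ i ∈ (fittingSubgroup N).map N.subtype) {g : Γ} (hg : g ∈ M)
    (hc : ∀ t : Nat.Primes, (t : ℕ) ≠ q → ∀ a ∈ (pCore (t : ℕ) N).map N.subtype, g * a = a * g) :
    g ∈ (fittingSubgroup N).map N.subtype := by
  classical
  have hq : q.Prime := Fact.out
  let R : ℕ → Subgroup Γ := fun t => (pCore t N).map N.subtype
  have hRn : ∀ t, (R t).Normal := fun t => inferInstance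
  set F := (fittingSubgroup N).map N.subtype with hF
  let D : Subgroup Γ := ⨆ t : {t : Nat.Primes // (t : ℕ) ≠ q}, R (t : Nat.Primes)
  have hDn : D.Normal := by
    haveI : ∀ t : {t : Nat.Primes // (t : ℕ) ≠ q}, (R (t : Nat.Primes)).Normal := fun t => hRn _
    exact Subgroup.iSup_normal _
  let L : Subgroup Γ := M ⊓ Subgroup.centralizer (D : Set Γ)
  have hLn : L.Normal := inferInstance
  have hLN : L ≤ N := inf_le_left.trans hMN
  have hMD : ∀ g ∈ M, ∃ i, g ^ q ^ i ∈ D := by
    intro g hg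
    obtain ⟨i, h1⟩ := hMq g hg
    have h2 : g ^ q ^ i ∈ D ⊔ R q := by
      refine (?_ : F ≤ D ⊔ R q) h1
      rw [hF, fittingSubgroup_eq_iSup_pCore, Subgroup.map_iSup]
      refine iSup_le fun r => ?_
      by_cases h : (r : ℕ) = q
      · rw [h]; exact le_sup_right
      · exact le_sup_of_le_left (le_iSup (fun r : {r : Nat.Primes // (r : ℕ) ≠ q} => R (r : Nat.Primes)) ⟨r, h⟩)
    obtain ⟨d, hd, b, hb, hdb⟩ := Subgroup.mem_sup_of_normal_left.mp h2
    have hRq : IsPGroup q (R q) := (isPGroup_pCore q).map _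
    obtain ⟨k, hk⟩ := hRq ⟨b, hb⟩
    refine ⟨i + k, ?_⟩
    rw [pow_add, pow_mul, ← hdb, ← QuotientGroup.eq_one_iff, QuotientGroup.mk_pow, QuotientGroup.mk_mul,
      (QuotientGroup.eq_one_iff d).mpr hd, one_mul, ← QuotientGroup.mk_pow,
      show b ^ q ^ k = 1 from congrArg Subtype.val hk, QuotientGroup.mk_one]
  have hLnil : Group.IsNilpotent L := by
    refine Group.of_quotient_center_nilpotent ?_
    refine IsPGroup.isNilpotent (p := q) fun z => ?_
    obtain ⟨l, rfl⟩ := QuotientGroup.mk_surjective z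
    obtain ⟨i, hi⟩ := hMD l l.2.1
    refine ⟨i, ?_⟩
    rw [← QuotientGroup.mk_pow, QuotientGroup.eq_one_iff, Subgroup.mem_center_iff]
    intro g
    refine Subtype.ext ?_
    show (g : Γ) * (l : Γ) ^ q ^ i = (l : Γ) ^ q ^ i * (g : Γ)
    exact (Subgroup.mem_centralizer_iff.mp g.2.2 _ hi).symm
  have hLF : L ≤ F := by
    rw [← Subgroup.map_subgroupOf_eq_of_le hLN]
    refine Subgroup.map_mono (le_fittingSubgroup ?_)
    exact Group.nilpotent_of_mulEquiv (Subgroup.subgroupOfEquivOfLe hLN).symm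
  refine hLF ⟨hg, Subgroup.mem_centralizer_iff.mpr fun d hd => ?_⟩
  have hle : D ≤ Subgroup.centralizer ({g} : Set Γ) := iSup_le fun t a ha =>
    Subgroup.mem_centralizer_singleton_iff.mpr (hc t.1 t.2 a ha).symm
  exact Subgroup.mem_centralizer_singleton_iff.mp (hle hd)

/-- The action on the Frattini quotient of a core factors through the quotient by the Fitting subgroup. -/
theorem exists_coreModule (N : Subgroup Γ) [N.Normal] (t : ℕ) [Fact t.Prime] :
    ∃ (V : Type u) (_ : AddCommGroup V) (_ : Module (ZMod t) V) (_ : FiniteDimensional (ZMod t) V)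
      (ρ : Γ ⧸ (fittingSubgroup N).map N.subtype →* Module.End (ZMod t) V),
      (∀ x : Γ, (∀ u ∈ N, x * u * x⁻¹ = u → u = 1) → ∀ v, ρ (x : Γ ⧸ _) v = v → v = 0) ∧
      ∀ (q : ℕ) (c : Γ), q.Prime → q ≠ t → (∃ i : ℕ, c ^ q ^ i = 1) → ρ (c : Γ ⧸ _) = 1 →
        ∀ a ∈ (pCore t N).map N.subtype, c * a = a * c := by
  classical
  set Rt := (pCore t N).map N.subtype with hRt
  have hRp : IsPGroup t Rt := (isPGroup_pCore t).map _
  obtain ⟨V, i1, i2, i3, πV, σ, hπs, hπadd, hπ0, hσ⟩ := HallHigman.exists_frattiniModule Rt hRp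
  set F := (fittingSubgroup N).map N.subtype with hF
  have hker : F ≤ σ.ker := by
    rw [hF, fittingSubgroup_eq_iSup_pCore, Subgroup.map_iSup]
    refine iSup_le fun s f hf => MonoidHom.mem_ker.mpr (LinearMap.ext fun v => ?_)
    obtain ⟨b, rfl⟩ := hπs v
    rw [hσ, Module.End.one_apply]
    by_cases hst : (s : ℕ) = t
    · have hf' : f ∈ Rt := by rw [hRt, ← hst]; exact hf
      have h1 : MulAut.conjNormal f b = (⟨f, hf'⟩ : Rt) * b * (⟨f, hf'⟩ : Rt)⁻¹ :=
        Subtype.ext (MulAut.conjNormal_apply f b)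
      have h2 : πV (⟨f, hf'⟩ : Rt)⁻¹ = - πV (⟨f, hf'⟩ : Rt) := by
        rw [eq_neg_iff_add_eq_zero, ← hπadd, inv_mul_cancel, hπ0]
        exact one_mem _
      rw [h1, hπadd, hπadd, h2]
      abel
    · congr 1
      refine Subtype.ext ?_
      rw [MulAut.conjNormal_apply]
      haveI : Fact (s : ℕ).Prime := ⟨s.2⟩
      have hdisj : Disjoint ((pCore (s : ℕ) N).map N.subtype) Rt := by
        rw [disjoint_iff, ← Subgroup.card_eq_one]
        obtain ⟨i, hi⟩ := IsPGroup.iff_card.mp ((isPGroup_pCore (G := N) (s : ℕ)).map N.subtype)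
        obtain ⟨j, hj⟩ := IsPGroup.iff_card.mp hRp
        refine Nat.eq_one_of_dvd_coprimes (Nat.Coprime.pow i j ((Nat.coprime_primes s.2 Fact.out).mpr hst)) ?_ ?_
        · rw [← hi]; exact Subgroup.card_dvd_of_le inf_le_left
        · rw [← hj]; exact Subgroup.card_dvd_of_le inf_le_right
      have h := Subgroup.commute_of_normal_of_disjoint _ _ inferInstance inferInstance hdisj f (b : Γ) hf b.2
      rw [h.eq, mul_inv_cancel_right]
  refine ⟨V, i1, i2, i3, QuotientGroup.lift F σ hker, fun x hfpf v hv => ?_, fun q c hq hqt hc hρc a ha => ?_⟩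
  · change σ x v = v at hv
    obtain ⟨b, rfl⟩ := hπs v
    rw [hσ] at hv
    have h1 : b⁻¹ * MulAut.conjNormal x b ∈ frattini Rt := by
      rw [← hπ0]
      have h2 := hπadd b (b⁻¹ * MulAut.conjNormal x b)
      rw [mul_inv_cancel_left, hv] at h2
      exact left_eq_add.mp h2
    have hKn : ((frattini Rt).map Rt.subtype).Normal := inferInstance
    have h3 : (b : Γ) ∈ (frattini Rt).map Rt.subtype :=
      ShultGross.mem_of_fixed_coset hfpf ((Subgroup.map_subtype_le _).trans (Subgroup.map_subtype_le _))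
        (fun k hk => hKn.conj_mem k hk x) (Subgroup.map_subtype_le _ b.2)
        (Subgroup.mem_map_of_mem Rt.subtype h1)
    obtain ⟨d, hd, hdb⟩ := h3
    rw [← Subtype.ext hdb, hπ0]
    exact hd
  · change σ c = 1 at hρc
    obtain ⟨i, hi⟩ := hc
    haveI := Fact.mk hq
    set C := Subgroup.zpowers c with hC
    have hCR : C ≤ Subgroup.normalizer (Rt : Set Γ) := by rw [Subgroup.normalizer_eq_top (H := Rt)]; exact le_top
    have hcopC : (Nat.card C).Coprime (Nat.card (frattini Rt)) := by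
      obtain ⟨k, -, hk⟩ := (Nat.dvd_prime_pow hq).mp (orderOf_dvd_of_pow_eq_one hi)
      obtain ⟨e, he⟩ := IsPGroup.iff_card.mp (hRp.to_subgroup (frattini Rt))
      rw [hC, Nat.card_zpowers, hk, he]
      exact Nat.Coprime.pow k e ((Nat.coprime_primes hq Fact.out).mpr hqt)
    have htriv : ∀ z ∈ C, ∀ k ∈ Rt, z * k * z⁻¹ * k⁻¹ ∈ (frattini Rt).map Rt.subtype := by
      intro z hz k hk
      have hzρ : σ z = 1 := MonoidHom.mem_ker.mp (Subgroup.zpowers_le.mpr (MonoidHom.mem_ker.mpr hρc) hz)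
      refine ⟨MulAut.conjNormal z (⟨k, hk⟩ : Rt) * (⟨k, hk⟩ : Rt)⁻¹, ?_, rfl⟩
      refine (hπ0 _).mp ?_
      have h2 := hπadd (MulAut.conjNormal z (⟨k, hk⟩ : Rt) * (⟨k, hk⟩ : Rt)⁻¹) ⟨k, hk⟩
      rw [inv_mul_cancel_right, ← hσ, hzρ, Module.End.one_apply] at h2
      exact right_eq_add.mp h2
    have h4 := Coprime.le_centralizer_of_frattini hCR hcopC htriv (Subgroup.mem_zpowers c)
    exact (Subgroup.mem_centralizer_iff.mp h4 a ha).symm

omit [Finite Γ] in
/-- An involution inverts the commutators with it. -/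
theorem conj_cy {y : Γ} (hy : y ^ 2 = 1) (v : Γ) :
    y * (v⁻¹ * (y * v * y⁻¹)) * y⁻¹ = (v⁻¹ * (y * v * y⁻¹))⁻¹ := by
  have hyy : y * y = 1 := by rw [← sq, hy]
  have hyi : y⁻¹ = y := by rw [inv_eq_iff_mul_eq_one, hyy]
  rw [mul_inv_rev, inv_inv, mul_inv_rev, mul_inv_rev, inv_inv, hyi]
  calc y * (v⁻¹ * (y * v * y)) * y = y * v⁻¹ * y * v * (y * y) := by group
    _ = _ := by rw [hyy]; group

/-- An involution centralising the Fitting subgroup of a solvable group of odd order centralises it. -/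
theorem commute_of_commute_fitting (N : Subgroup Γ) [N.Normal] [Group.IsSolvable N] (hodd : Odd (Nat.card N))
    {y : Γ} (hy : y ^ 2 = 1) (hF : ∀ f ∈ (fittingSubgroup N).map N.subtype, y * f = f * y) :
    ∀ g ∈ N, y * g = g * y := by
  intro g hg
  set e := g⁻¹ * (y * g * y⁻¹) with he
  have heN : e ∈ N := N.mul_mem (N.inv_mem hg) ((inferInstance : N.Normal).conj_mem g hg y)
  have hec : (⟨e, heN⟩ : N) ∈ Subgroup.centralizer (fittingSubgroup N : Set N) := by
    rw [Subgroup.mem_centralizer_iff]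
    intro f hf
    refine Subtype.ext ?_
    show (f : Γ) * e = e * (f : Γ)
    have h1 : y * (f : Γ) = f * y := hF _ (Subgroup.mem_map_of_mem N.subtype hf)
    have h2 : y * (g * (f : Γ) * g⁻¹) = g * (f : Γ) * g⁻¹ * y :=
      hF _ (Subgroup.mem_map_of_mem N.subtype
        ((inferInstance : (fittingSubgroup N).Normal).conj_mem f hf ⟨g, hg⟩))
    have h4 : y⁻¹ * (f : Γ) = f * y⁻¹ := ((show Commute y (f : Γ) from h1).inv_left).eq
    have h3 : y * g * y⁻¹ * (f : Γ) = g * f * g⁻¹ * (y * g * y⁻¹) := by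
      calc y * g * y⁻¹ * (f : Γ) = y * g * (y⁻¹ * f) := by group
        _ = y * (g * f * g⁻¹) * g * y⁻¹ := by rw [h4]; group
        _ = _ := by rw [h2]; group
    rw [he]
    calc (f : Γ) * (g⁻¹ * (y * g * y⁻¹)) = g⁻¹ * (g * f * g⁻¹ * (y * g * y⁻¹)) := by group
      _ = g⁻¹ * (y * g * y⁻¹ * f) := by rw [h3]
      _ = _ := by group
  have hye : y * e = e * y := hF e ⟨_, centralizer_fittingSubgroup_le hec, rfl⟩
  have hinv : y * e * y⁻¹ = e⁻¹ := conj_cy hy g
  rw [hye, mul_inv_cancel_right] at hinv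
  have he2 : (⟨e, heN⟩ : N) ^ 2 = 1 := Subtype.ext (by
    show e ^ 2 = 1
    rw [sq]; nth_rw 1 [hinv]; exact inv_mul_cancel e)
  have he1 : (⟨e, heN⟩ : N) = 1 := by
    rcases (Nat.dvd_prime Nat.prime_two).mp (orderOf_dvd_of_pow_eq_one he2) with h | h
    · exact orderOf_eq_one_iff.mp h
    · exact absurd (even_iff_two_dvd.mpr (h ▸ orderOf_dvd_natCard _)) (Nat.not_even_iff_odd.mpr hodd)
  have h : g⁻¹ * (y * g * y⁻¹) = 1 := congrArg Subtype.val he1
  exact mul_inv_eq_iff_eq_mul.mp (inv_mul_eq_one.mp h).symm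

/-- In `Γ` modulo the Fitting subgroup of `N`, the commutators with the top involution lie in the Fitting subgroup. -/
theorem step (N : Subgroup Γ) [N.Normal] [Group.IsSolvable N] (x : Γ) {n : ℕ} (hn : n ≠ 0) (hxN : x ^ 2 ^ n = 1)
    (hfpf : ∀ u ∈ N, x * u * x⁻¹ = u → u = 1) :
    ∀ g ∈ N, QuotientGroup.mk' ((fittingSubgroup N).map N.subtype)
        (g⁻¹ * (x ^ 2 ^ (n - 1) * g * (x ^ 2 ^ (n - 1))⁻¹)) ∈
      (fittingSubgroup (N.map (QuotientGroup.mk' ((fittingSubgroup N).map N.subtype)))).map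
        (N.map (QuotientGroup.mk' ((fittingSubgroup N).map N.subtype))).subtype := by
  classical
  haveI : Fact (Nat.Prime 2) := ⟨Nat.prime_two⟩
  have h2N : ¬ 2 ∣ Nat.card N := by
    intro hd
    set A := Subgroup.zpowers x with hA
    have hAp : IsPGroup 2 A := by
      obtain ⟨i, -, hi⟩ := (Nat.dvd_prime_pow Nat.prime_two).mp (orderOf_dvd_of_pow_eq_one hxN)
      exact IsPGroup.of_card (n := i) (by rw [hA, Nat.card_zpowers, hi])
    letI : MulAction A N := MulAction.compHom N ((MulAut.conjNormal (H := N)).comp A.subtype)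
    have hfix : Nat.card (MulAction.fixedPoints A N) = 1 := by
      rw [Nat.card_eq_one_iff_unique]
      refine ⟨⟨fun a b => ?_⟩, ⟨⟨1, fun g => map_one (MulAut.conjNormal (H := N) (g : Γ))⟩⟩⟩
      have h : ∀ c : MulAction.fixedPoints A N, (c : N) = 1 := fun c =>
        Subtype.ext (hfpf _ (c : N).2 (congrArg Subtype.val (c.2 ⟨x, Subgroup.mem_zpowers x⟩)))
      exact Subtype.ext ((h a).trans (h b).symm)
    have h := hAp.card_modEq_card_fixedPoints N
    rw [hfix, Nat.ModEq] at h
    omega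
  set F := (fittingSubgroup N).map N.subtype with hF
  set π := QuotientGroup.mk' F with hπ
  set Nb := N.map π with hNb
  haveI hNbn : Nb.Normal := Subgroup.Normal.map inferInstance π (QuotientGroup.mk'_surjective F)
  haveI : Group.IsSolvable Nb := Group.isSolvable_of_surjective (π.subgroupMap_surjective N)
  have h2Nb : ¬ 2 ∣ Nat.card Nb := fun h => h2N (h.trans (Subgroup.card_map_dvd N π))
  set F1 := (fittingSubgroup Nb).map Nb.subtype with hF1
  set π2 := QuotientGroup.mk' F1 with hπ2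
  set N2 := Nb.map π2 with hN2
  haveI hN2n : N2.Normal := Subgroup.Normal.map inferInstance π2 (QuotientGroup.mk'_surjective F1)
  haveI : Group.IsSolvable N2 := Group.isSolvable_of_surjective (π2.subgroupMap_surjective Nb)
  have hN2odd : Odd (Nat.card N2) := by
    rw [← Nat.not_even_iff_odd, even_iff_two_dvd]
    exact fun h => h2Nb (h.trans (Subgroup.card_map_dvd Nb π2))
  set x1 := π x with hx1
  set y1 := x1 ^ 2 ^ (n - 1) with hy1
  have hx1N : x1 ^ 2 ^ n = 1 := by rw [hx1, ← map_pow, hxN, map_one]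
  have hy1sq : y1 ^ 2 = 1 := by rw [hy1, ← pow_mul, ← pow_succ, Nat.sub_add_cancel (by omega), hx1N]
  suffices key : ∀ g ∈ N2, π2 y1 * g = g * π2 y1 by
    intro g hg
    have h := key (π2 (π g)) (Subgroup.mem_map_of_mem π2 (Subgroup.mem_map_of_mem π hg))
    refine (QuotientGroup.eq_one_iff _).mp ?_
    show π2 (π (g⁻¹ * (x ^ 2 ^ (n - 1) * g * (x ^ 2 ^ (n - 1))⁻¹))) = 1
    simp only [map_mul, map_inv, map_pow π, ← hx1, ← hy1]
    rw [h, mul_inv_cancel_right, inv_mul_cancel]
  refine commute_of_commute_fitting N2 hN2odd (by rw [← map_pow, hy1sq, map_one]) ?_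
  have hle : (fittingSubgroup N2).map N2.subtype ≤ Subgroup.centralizer ({π2 y1} : Set _) := by
    rw [fittingSubgroup_eq_iSup_pCore (G := N2), Subgroup.map_iSup]
    refine iSup_le fun r f hf => Subgroup.mem_centralizer_singleton_iff.mpr ?_
    obtain ⟨r, hr⟩ := r
    haveI := Fact.mk hr
    change f ∈ (pCore r N2).map N2.subtype at hf
    by_cases hr2 : r = 2
    · subst hr2
      rw [pCore_eq_bot_of_not_dvd (fun h => (Nat.not_even_iff_odd.mpr hN2odd) (even_iff_two_dvd.mpr h)),
        Subgroup.map_bot, Subgroup.mem_bot] at hf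
      rw [hf, one_mul, mul_one]
    set Rb := (pCore r N2).map N2.subtype with hRb
    have hRbn : Rb.Normal := inferInstance
    have hRbp : IsPGroup r Rb := (isPGroup_pCore r).map _
    set M := Rb.comap π2 with hM
    have hMn : M.Normal := hRbn.comap π2
    have hMN : M ≤ Nb := by
      intro z hz
      obtain ⟨g, hg, he⟩ := (Subgroup.map_subtype_le _ : Rb ≤ N2) hz
      have h2 : g⁻¹ * z ∈ F1 := by
        rw [← QuotientGroup.eq_one_iff]
        show π2 (g⁻¹ * z) = 1
        rw [map_mul, map_inv, he, inv_mul_cancel]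
      simpa using Nb.mul_mem hg (Subgroup.map_subtype_le _ h2)
    have hMr : ∀ g ∈ M, ∃ i : ℕ, g ^ r ^ i ∈ F1 := by
      intro g hg
      obtain ⟨i, hi⟩ := hRbp ⟨π2 g, hg⟩
      exact ⟨i, (QuotientGroup.eq_one_iff _).mp ((map_pow π2 g _).trans (congrArg Subtype.val hi))⟩
    set A := Subgroup.zpowers x1 with hA
    have hAM : A ≤ Subgroup.normalizer (M : Set _) := by rw [Subgroup.normalizer_eq_top (H := M)]; exact le_top
    have hcop : (Nat.card A).Coprime (Nat.card M) := by
      obtain ⟨i, -, hi⟩ := (Nat.dvd_prime_pow Nat.prime_two).mp (orderOf_dvd_of_pow_eq_one hx1N)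
      rw [hA, Nat.card_zpowers, hi]
      exact Nat.Coprime.pow_left i (Nat.prime_two.coprime_iff_not_dvd.mpr fun h =>
        h2Nb (h.trans (Subgroup.card_dvd_of_le hMN)))
    haveI : Group.IsSolvable A := Group.isSolvable_of_comm fun a b => mul_comm' a b
    obtain ⟨R0, hAR⟩ := Coprime.exists_invariant_sylow hAM hcop (Or.inl inferInstance) r
    set R := (R0 : Subgroup M).map M.subtype with hR
    have hRM : R ≤ M := Subgroup.map_subtype_le _
    have hRr : IsPGroup r R := R0.2.map _
    have hxR : x1 ∈ Subgroup.normalizer (R : Set _) := hAR (Subgroup.mem_zpowers x1)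
    have hyR : y1 ∈ Subgroup.normalizer (R : Set _) := Subgroup.pow_mem _ hxR _
    let cy : (Γ ⧸ F) → (Γ ⧸ F) := fun v => v⁻¹ * (y1 * v * y1⁻¹)
    have hcyR : ∀ v ∈ R, cy v ∈ R := fun v hv =>
      R.mul_mem (R.inv_mem hv) ((Subgroup.mem_normalizer_iff.mp hyR v).mp hv)
    set R1 := Subgroup.closure (cy '' (R : Set _)) with hR1
    have hR1R : R1 ≤ R := by
      rw [hR1, Subgroup.closure_le]
      rintro _ ⟨v, hv, rfl⟩
      exact hcyR v hv
    have hgen1 : Subgroup.closure (cy '' (R1 : Set _)) = R1 := by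
      refine le_antisymm ?_ ?_
      · rw [Subgroup.closure_le]
        rintro _ ⟨v, hv, rfl⟩
        exact Subgroup.subset_closure ⟨v, hR1R hv, rfl⟩
      · conv_lhs => rw [hR1]
        rw [Subgroup.closure_le]
        rintro _ ⟨v, hv, rfl⟩
        have he1 : cy v ∈ R1 := Subgroup.subset_closure ⟨v, hv, rfl⟩
        obtain ⟨e, he⟩ := hRr ⟨cy v, hcyR v hv⟩
        obtain ⟨b, hb⟩ := ((hr.odd_of_ne_two hr2).pow : Odd (r ^ e))
        refine Subgroup.subset_closure ⟨(cy v ^ (b + 1))⁻¹, R1.inv_mem (R1.pow_mem he1 _), ?_⟩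
        show ((cy v ^ (b + 1))⁻¹)⁻¹ * (y1 * (cy v ^ (b + 1))⁻¹ * y1⁻¹) = cy v
        rw [inv_inv, show y1 * (cy v ^ (b + 1))⁻¹ * y1⁻¹ = (y1 * cy v ^ (b + 1) * y1⁻¹)⁻¹ by group, ← conj_pow,
          conj_cy hy1sq, inv_pow, inv_inv, ← pow_add, show b + 1 + (b + 1) = r ^ e + 1 by omega, pow_succ,
          show cy v ^ r ^ e = 1 from congrArg Subtype.val he, one_mul]
    have hxR1 : x1 ∈ Subgroup.normalizer (R1 : Set _) := by
      refine mem_normalizer_of_map ?_
      rw [hR1, MonoidHom.map_closure]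
      congr 1
      ext g
      have hxy : Commute x1 y1 := Commute.self_pow x1 _
      have hg : ∀ v, x1 * cy v * x1⁻¹ = cy (x1 * v * x1⁻¹) := fun v => by
        show x1 * (v⁻¹ * (y1 * v * y1⁻¹)) * x1⁻¹ = (x1 * v * x1⁻¹)⁻¹ * (y1 * (x1 * v * x1⁻¹) * y1⁻¹)
        have h1 : y1 * x1 = x1 * y1 := hxy.symm.eq
        have h2 : x1⁻¹ * y1⁻¹ = y1⁻¹ * x1⁻¹ := by rw [← mul_inv_rev, ← mul_inv_rev, h1]
        calc x1 * (v⁻¹ * (y1 * v * y1⁻¹)) * x1⁻¹ = x1 * v⁻¹ * x1⁻¹ * ((x1 * y1) * v * (y1⁻¹ * x1⁻¹)) := by group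
          _ = x1 * v⁻¹ * x1⁻¹ * ((y1 * x1) * v * (x1⁻¹ * y1⁻¹)) := by rw [h1, h2]
          _ = _ := by group
      constructor
      · rintro ⟨_, ⟨v, hv, rfl⟩, rfl⟩
        exact ⟨x1 * v * x1⁻¹, (Subgroup.mem_normalizer_iff.mp hxR v).mp hv, (hg v).symm⟩
      · rintro ⟨v, hv, rfl⟩
        refine ⟨cy (x1⁻¹ * v * x1), ⟨x1⁻¹ * v * x1, ?_, rfl⟩, ?_⟩
        · refine (Subgroup.mem_normalizer_iff.mp hxR _).mpr ?_
          rwa [show x1 * (x1⁻¹ * v * x1) * x1⁻¹ = v by group]
        · show x1 * cy (x1⁻¹ * v * x1) * x1⁻¹ = cy v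
          rw [hg]; congr 1; group
    -- `R1` lies in the Fitting subgroup
    have hR1F : R1 ≤ F1 := by
      intro c hc
      refine mem_fitting_of_centralizes Nb M hMN hMr (hRM (hR1R hc)) ?_
      rintro ⟨q, hq⟩ hqr a ha
      change q ≠ r at hqr
      change a ∈ (pCore q Nb).map Nb.subtype at ha
      haveI := Fact.mk hq
      by_cases hq2 : q = 2
      · subst hq2
        rw [pCore_eq_bot_of_not_dvd h2Nb, Subgroup.map_bot, Subgroup.mem_bot] at ha
        rw [ha, mul_one, one_mul]
      set Qb := (pCore q Nb).map Nb.subtype with hQb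
      have hQbn : Qb.Normal := inferInstance
      have hQbq : IsPGroup q Qb := (isPGroup_pCore q).map _
      set e := a⁻¹ * (c * a * c⁻¹) with he
      have heQ : e ∈ Qb := Qb.mul_mem (Qb.inv_mem ha) (hQbn.conj_mem a ha c)
      have htriv : e = 1 := by
        set MQ := Qb.comap π with hMQ
        have hMQn : MQ.Normal := hQbn.comap π
        have hMQN : MQ ≤ N := by
          intro z hz
          obtain ⟨g, hg, hge⟩ := (Subgroup.map_subtype_le _ : Qb ≤ Nb) hz
          have h2 : g⁻¹ * z ∈ F := by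
            rw [← QuotientGroup.eq_one_iff]
            show π (g⁻¹ * z) = 1
            rw [map_mul, map_inv, hge, inv_mul_cancel]
          simpa using N.mul_mem hg (Subgroup.map_subtype_le _ h2)
        have hMQq : ∀ g ∈ MQ, ∃ i : ℕ, g ^ q ^ i ∈ F := by
          intro g hg
          obtain ⟨i, hi⟩ := hQbq ⟨π g, hg⟩
          exact ⟨i, (QuotientGroup.eq_one_iff _).mp ((map_pow π g _).trans (congrArg Subtype.val hi))⟩
        obtain ⟨S0⟩ : Nonempty (Sylow q MQ) := inferInstance
        obtain ⟨h, hh, hhe⟩ : e ∈ ((S0 : Subgroup MQ).map MQ.subtype).map π := by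
          have h1 : ((S0 : Subgroup MQ).map (π.subgroupMap MQ)) = ⊤ := by
            have hsurj := π.subgroupMap_surjective MQ
            have hMb : IsPGroup q (MQ.map π) := hQbq.to_le (Subgroup.map_comap_le π Qb)
            let T := S0.mapSurjective hsurj
            have hT : IsPGroup q (⊤ : Subgroup (MQ.map π)) := hMb.to_subgroup ⊤
            exact ((T.is_maximal' hT le_top).symm : (T : Subgroup (MQ.map π)) = ⊤)
          have heM : e ∈ MQ.map π := by
            rw [hMQ, Subgroup.map_comap_eq_self_of_surjective (QuotientGroup.mk'_surjective F)]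
            exact heQ
          obtain ⟨w, hw, hwe⟩ := h1.ge (Subgroup.mem_top (⟨e, heM⟩ : MQ.map π))
          exact ⟨(w : Γ), Subgroup.mem_map_of_mem MQ.subtype hw, congrArg Subtype.val hwe⟩
        have hhF : h ∈ F := by
          refine mem_fitting_of_centralizes N MQ hMQN hMQq (Subgroup.map_subtype_le _ hh) ?_
          rintro ⟨t, ht⟩ htq b hb
          change t ≠ q at htq
          change b ∈ (pCore t N).map N.subtype at hb
          haveI := Fact.mk ht
          by_cases ht2 : t = 2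
          · subst ht2
            rw [pCore_eq_bot_of_not_dvd h2N, Subgroup.map_bot, Subgroup.mem_bot] at hb
            rw [hb, mul_one, one_mul]
          obtain ⟨V, i1, i2, i3, ρ, hρfix, hρker⟩ := exists_coreModule N t
          obtain ⟨D, φ, hφ⟩ := HallHigman.exists_extendScalars (K := ZMod t) (V := V) (AlgebraicClosure (ZMod t))
          have hcast : ∀ k : ℕ, k.Prime → k ≠ t → ((k : ℕ) : AlgebraicClosure (ZMod t)) ≠ 0 := by
            intro k hk hne h
            haveI : CharP (AlgebraicClosure (ZMod t)) t :=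
              charP_of_injective_algebraMap (algebraMap (ZMod t) _).injective t
            exact hne ((Nat.prime_dvd_prime_iff_eq ht hk).mp ((CharP.cast_eq_zero_iff _ t k).mp h)).symm
          have h2K : (2 : AlgebraicClosure (ZMod t)) ≠ 0 := by exact_mod_cast hcast 2 Nat.prime_two (Ne.symm ht2)
          have hnf : ∀ v, (φ.toMonoidHom.comp ρ) x1 v = v → v = 0 := by
            intro v hv
            have hsum : ∑ i ∈ Finset.range (2 ^ n), (ρ x1) ^ i = 0 :=
              sum_pow_eq_zero (by rw [← map_pow, hx1N, map_one]) (hρfix x hfpf)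
            have h1 := congrArg (fun A : Module.End (AlgebraicClosure (ZMod t)) _ => A v) (congrArg φ hsum)
            simp only [map_sum, map_pow, map_zero, LinearMap.sum_apply, LinearMap.zero_apply] at h1
            have hk : ∀ k : ℕ, (φ (ρ x1) ^ k) v = v := fun k => by
              induction k with
              | zero => rfl
              | succ k ih => rw [pow_succ', Module.End.mul_apply, ih]; exact hv
            simp only [hk, Finset.sum_const, Finset.card_range, ← Nat.cast_smul_eq_nsmul (AlgebraicClosure (ZMod t)),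
              smul_eq_zero] at h1
            refine h1.resolve_left ?_
            rw [Nat.cast_pow]
            exact pow_ne_zero n (by exact_mod_cast h2K)
          have hcore := core (q := q) (r := r) hq2 hr2 (Ne.symm hqr) (hcast q hq (Ne.symm htq)) h2K
            (φ.toMonoidHom.comp ρ) x1 hn hx1N hnf R1 (hRr.to_le hR1R) hxR1 (by simpa only [← hy1] using hgen1)
            Qb hQbq (by rw [Subgroup.normalizer_eq_top (H := Qb)]; exact le_top)
            (by rw [Subgroup.normalizer_eq_top (H := Qb)]; exact Subgroup.mem_top _) c hc a ha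
          have hρe : ρ e = 1 := by
            refine hφ ?_
            rw [map_one]
            show (φ.toMonoidHom.comp ρ) e = 1
            rw [he, map_mul, hcore, ← map_mul, inv_mul_cancel, map_one]
          have hS : IsPGroup q ((S0 : Subgroup MQ).map MQ.subtype) := S0.2.map _
          obtain ⟨i, hi⟩ := hS ⟨h, hh⟩
          refine hρker q h hq (Ne.symm htq) ⟨i, congrArg Subtype.val hi⟩ ?_ b hb
          rw [← hρe, ← hhe]
          rfl
        rw [← hhe]
        exact (QuotientGroup.eq_one_iff h).mpr hhF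
      rw [he, inv_mul_eq_one] at htriv
      exact (mul_inv_eq_iff_eq_mul.mp htriv.symm)
    obtain ⟨g, hgR, rfl⟩ : f ∈ R.map π2 := by
      have h1 : ((R0 : Subgroup M).map (π2.subgroupMap M)) = ⊤ := by
        have hsurj := π2.subgroupMap_surjective M
        have hMb : IsPGroup r (M.map π2) := hRbp.to_le (Subgroup.map_comap_le π2 Rb)
        let T := R0.mapSurjective hsurj
        have hT : IsPGroup r (⊤ : Subgroup (M.map π2)) := hMb.to_subgroup ⊤
        exact ((T.is_maximal' hT le_top).symm : (T : Subgroup (M.map π2)) = ⊤)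
      have hfM : f ∈ M.map π2 := by
        rw [hM, Subgroup.map_comap_eq_self_of_surjective (QuotientGroup.mk'_surjective F1)]
        exact hf
      obtain ⟨w, hw, hwf⟩ := h1.ge (Subgroup.mem_top (⟨f, hfM⟩ : M.map π2))
      exact ⟨(w : Γ ⧸ F), Subgroup.mem_map_of_mem M.subtype hw, congrArg Subtype.val hwf⟩
    have h1 : π2 (cy g) = 1 := (QuotientGroup.eq_one_iff _).mpr (hR1F (Subgroup.subset_closure ⟨g, hgR, rfl⟩))
    simp only [cy, map_mul, map_inv] at h1
    exact (mul_inv_eq_iff_eq_mul.mp (inv_mul_eq_one.mp h1).symm).symm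
  exact fun f hf => (Subgroup.mem_centralizer_singleton_iff.mp (hle hf)).symm

/-- The preimage of the Fitting subgroup of the quotient by the Fitting subgroup. -/
def sndFitting (A : Type u) [Group A] : Subgroup A :=
  (fittingSubgroup (A ⧸ fittingSubgroup A)).comap (QuotientGroup.mk' (fittingSubgroup A))

/-- Surjections carry the second Fitting subgroup into the second Fitting subgroup. -/
theorem map_sndFitting_le {A B : Type u} [Group A] [Group B] (f : A →* B) (hf : Function.Surjective f) :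
    (sndFitting A).map f ≤ sndFitting B := by
  let fb : A ⧸ fittingSubgroup A →* B ⧸ fittingSubgroup B :=
    QuotientGroup.map _ _ f (Subgroup.map_le_iff_le_comap.mp (map_fittingSubgroup_le hf))
  have hfb : Function.Surjective fb := by
    intro b
    obtain ⟨b, rfl⟩ := QuotientGroup.mk_surjective b
    obtain ⟨a, rfl⟩ := hf b
    exact ⟨(a : A ⧸ fittingSubgroup A), rfl⟩
  rintro _ ⟨a, ha, rfl⟩
  show fb (a : A ⧸ fittingSubgroup A) ∈ fittingSubgroup (B ⧸ fittingSubgroup B)
  exact map_fittingSubgroup_le hfb (Subgroup.mem_map_of_mem fb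
    (show (a : A ⧸ fittingSubgroup A) ∈ fittingSubgroup (A ⧸ fittingSubgroup A) from ha))

/-- One step down in the order of the automorphism costs two steps of the Fitting series. -/
theorem mem_sndFitting {G : Type u} [Group G] [Finite G] (hG : Group.IsSolvable G) (σ : MulAut G) {n : ℕ}
    (hn : n ≠ 0) (hσ : σ ^ 2 ^ n = 1) (hfpf : ∀ g : G, σ g = g → g = 1) :
    ∀ g : G, g⁻¹ * (σ ^ 2 ^ (n - 1)) g ∈ sndFitting G := by
  haveI := hG
  let φ : Subgroup.zpowers σ →* MulAut G := (Subgroup.zpowers σ).subtype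
  let Γ := G ⋊[φ] Subgroup.zpowers σ
  haveI : Finite Γ := Finite.of_equiv _ SemidirectProduct.equivProd.symm
  let N : Subgroup Γ := (SemidirectProduct.inl : G →* Γ).range
  haveI : N.Normal := by
    show ((SemidirectProduct.inl : G →* Γ).range).Normal
    rw [SemidirectProduct.range_inl_eq_ker_rightHom]; infer_instance
  haveI : Group.IsSolvable N := Group.isSolvable_of_surjective (SemidirectProduct.inl (φ := φ)).rangeRestrict_surjective
  let x : Γ := SemidirectProduct.inr ⟨σ, Subgroup.mem_zpowers σ⟩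
  have hconj : ∀ (i : ℕ) (g : G), x ^ i * SemidirectProduct.inl g * (x ^ i)⁻¹ = SemidirectProduct.inl ((σ ^ i) g) := by
    intro i g
    rw [← map_pow, ← map_inv, ← SemidirectProduct.inl_aut]
    rfl
  have hxN : x ^ 2 ^ n = 1 := by
    rw [← map_pow, show (⟨σ, Subgroup.mem_zpowers σ⟩ : Subgroup.zpowers σ) ^ 2 ^ n = 1 from Subtype.ext hσ,
      map_one]
  have hfpf' : ∀ u ∈ N, x * u * x⁻¹ = u → u = 1 := by
    rintro _ ⟨g, rfl⟩ h
    have h1 := hconj 1 g
    rw [pow_one, pow_one, h] at h1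
    rw [hfpf g (SemidirectProduct.inl_injective h1).symm, map_one]
  intro g
  let e : G ≃* N := MonoidHom.ofInjective SemidirectProduct.inl_injective
  set F := (fittingSubgroup N).map N.subtype with hF
  let π := QuotientGroup.mk' F
  let p : N →* N.map π := π.subgroupMap N
  have hp : Function.Surjective p := π.subgroupMap_surjective N
  have hpk : p.ker ≤ (QuotientGroup.mk' (fittingSubgroup N)).ker := by
    intro a ha
    rw [QuotientGroup.ker_mk']
    have h : π (a : Γ) = 1 := congrArg Subtype.val (MonoidHom.mem_ker.mp ha)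
    obtain ⟨b, hb, hba⟩ := (QuotientGroup.eq_one_iff _).mp h
    rwa [← Subtype.ext hba]
  let α : N.map π →* N ⧸ fittingSubgroup N := MonoidHom.liftOfSurjective p hp ⟨_, hpk⟩
  have hα : ∀ a : N, α (p a) = (a : N ⧸ fittingSubgroup N) := fun a =>
    MonoidHom.liftOfRightInverse_comp_apply _ _ _ ⟨QuotientGroup.mk' (fittingSubgroup N), hpk⟩ a
  have hαs : Function.Surjective α := fun b => by
    obtain ⟨a, rfl⟩ := QuotientGroup.mk_surjective b
    exact ⟨p a, hα a⟩
  have h := step N x hn hxN hfpf' _ ⟨g, rfl⟩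
  rw [hconj, ← map_inv, ← map_mul] at h
  obtain ⟨z, hz, hze⟩ := h
  have h2 : α z ∈ fittingSubgroup (N ⧸ fittingSubgroup N) :=
    map_fittingSubgroup_le hαs (Subgroup.mem_map_of_mem α hz)
  rw [show z = p (e (g⁻¹ * (σ ^ 2 ^ (n - 1)) g)) from Subtype.ext hze, hα] at h2
  have h3 : e.symm (e (g⁻¹ * (σ ^ 2 ^ (n - 1)) g)) ∈ sndFitting G :=
    map_sndFitting_le e.symm.toMonoidHom e.symm.surjective (Subgroup.mem_map_of_mem e.symm.toMonoidHom
      (show e (g⁻¹ * (σ ^ 2 ^ (n - 1)) g) ∈ sndFitting N from h2))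
  rwa [e.symm_apply_apply] at h3

end Cfsg.Agent.Lib.TwoPowerFPF
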