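import Cfsg.Agent.Lib.TwoPowerFPF.Component
import Cfsg.Agent.Lib.TwoPowerFPF.Displacement

set_option autoImplicit false
set_option linter.unusedSectionVars false
set_option linter.style.haveILetI false

/-! An operator of two-power order without fixed vectors and a group acting on the group it normalises. -/

namespace Cfsg.Agent.Lib.TwoPowerFPF

open Cfsg.Agent.Lib.HallHigman

universe u v w

variable {K : Type w} {G : Type u} {V : Type v} [Field K] [Group G] [Finite G] [AddCommGroup V] [Module K V]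
  [FiniteDimensional K V]

/-- Translates of good subspaces are good. -/
theorem Good.map {ρ : G →* Module.End K V} {Q : Subgroup G} {x : G} {n : ℕ}
    (hx : x ∈ Subgroup.normalizer (Q : Set G)) {A : Submodule K V} (hA : Good ρ Q x n A) :
    Good ρ Q x n (A.map (ρ x)) := by
  obtain ⟨hs, a, ha, hmap, hfix⟩ := hA
  refine ⟨hs.map hx, a, ha, ?_, ?_⟩
  · rw [map_map_rho, (Commute.pow_self x (2 ^ a)).eq, ← map_map_rho, hmap]
  · rintro _ ⟨v, hv, rfl⟩ h
    rw [← rho_mul, (Commute.pow_self x (2 ^ a)).eq, rho_mul] at h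
    rw [hfix v hv (rho_injective x h), map_zero]

/-- The top involution fixes the scalar values of simple subspaces. -/
theorem scalar_fixed [IsAlgClosed K] {q : ℕ} [Fact q.Prime] (ρ : G →* Module.End K V) {Q : Subgroup G}
    (hQ : IsPGroup q Q) (hqK : (q : K) ≠ 0) (h2K : (2 : K) ≠ 0) {x : G}
    (hxQ : x ∈ Subgroup.normalizer (Q : Set G)) {n : ℕ} (hxN : x ^ 2 ^ n = 1) (hfix : ∀ v, ρ x v = v → v = 0)
    {W : Submodule K V} (hW : SimpleSub ρ Q W) {v : G} (hv : v ∈ Q) {s : K} (hs : ∀ w ∈ W, ρ v w = s • w) :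
    ∀ w ∈ W, ρ (x ^ 2 ^ (n - 1) * v * (x ^ 2 ^ (n - 1))⁻¹) w = s • w := by
  classical
  obtain ⟨C, hC, -, hdisj, hsup⟩ := exists_compl_sub (ρ := ρ) Q (card_ne_zero hQ hqK) hW.2.1
    (fun _ _ _ _ => Submodule.mem_top : Inv ρ Q ⊤) le_top
  rw [sup_comm] at hsup
  obtain ⟨A, hA, hAC⟩ : ∃ A, Good ρ Q x n A ∧ ¬ A ≤ C := by
    by_contra hall
    push Not at hall
    let S : Submodule K V :=
      { carrier := {w | ∀ (i : ℕ), ∀ t ∈ Q, ρ t (ρ (x ^ i) w) ∈ C}
        zero_mem' := fun i t _ => by rw [map_zero, map_zero]; exact C.zero_mem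
        add_mem' := fun {a b} ha hb i t ht => by rw [map_add, map_add]; exact C.add_mem (ha i t ht) (hb i t ht)
        smul_mem' := fun c a ha i t ht => by rw [map_smul, map_smul]; exact C.smul_mem c (ha i t ht) }
    have hSQ : Inv ρ Q S := by
      intro u hu w hw i t ht
      have hu' : x ^ i * u * (x ^ i)⁻¹ ∈ Q :=
        (Subgroup.mem_normalizer_iff.mp (Subgroup.pow_mem _ hxQ i) u).mp hu
      rw [← rho_mul, ← rho_mul, show t * x ^ i * u = t * (x ^ i * u * (x ^ i)⁻¹) * x ^ i by group, rho_mul]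
      exact hw i _ (Q.mul_mem ht hu')
    have hSx : ∀ w ∈ S, ρ x w ∈ S := by
      intro w hw i t ht
      rw [← rho_mul (x ^ i), ← pow_succ]
      exact hw (i + 1) t ht
    have htop := eq_top_of_good hQ hqK h2K hxQ hxN hfix S hSQ hSx fun A hA w hw i t ht => by
      have h : ∀ j : ℕ, Good ρ Q x n (A.map (ρ (x ^ j))) := by
        intro j
        induction j with
        | zero => rwa [pow_zero, map_rho_one]
        | succ j ihj => rw [pow_succ', ← map_map_rho]; exact ihj.map hxQ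
      exact hall _ (h i) ((h i).1.2.1 t ht _ (Submodule.mem_map_of_mem hw))
    apply hW.1
    have hCtop : C = ⊤ := top_le_iff.mp fun w _ => by
      have := (htop.ge (Submodule.mem_top : w ∈ ⊤) : w ∈ S) 0 1 Q.one_mem
      rwa [pow_zero, map_one] at this
    have := disjoint_iff.mp hdisj
    rwa [hCtop, top_inf_eq] at this
  have hiso := isoTo_proj hW hA.1 hC hdisj.symm hsup hAC
  obtain ⟨hAs, a, han, hmap, -⟩ := hA
  set y := x ^ 2 ^ (n - 1) with hy
  have hyA : y ∈ stab ρ A := by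
    have : y = (x ^ 2 ^ a) ^ 2 ^ (n - 1 - a) := by rw [hy, ← pow_mul, ← pow_add]; congr 2; omega
    rw [this]
    exact (stab ρ A).pow_mem hmap _
  have hsA : ∀ b ∈ A, ρ v b = s • b := IsoTo.scalar hW.2.1 (hiso.symm hAs.2.1) hv hs
  refine IsoTo.scalar hAs.2.1 hiso ((Subgroup.mem_normalizer_iff.mp (Subgroup.pow_mem _ hxQ _) v).mp hv) fun b hb => ?_
  rw [rho_mul, rho_mul, hsA _ (apply_mem_of_mem_stab ((stab ρ A).inv_mem hyA) hb), map_smul, rho_apply_inv]

/-- A group generated by commutators with the top involution centralises the image of `Q`. -/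
theorem core [IsAlgClosed K] {q r : ℕ} [Fact q.Prime] [Fact r.Prime] (hq2 : q ≠ 2) (hr2 : r ≠ 2) (hrq : r ≠ q)
    (hqK : (q : K) ≠ 0) (h2K : (2 : K) ≠ 0) (ρ : G →* Module.End K V) (x : G) {n : ℕ} (hn : n ≠ 0)
    (hxN : x ^ 2 ^ n = 1) (hfix : ∀ v, ρ x v = v → v = 0) (R : Subgroup G) (hR : IsPGroup r R)
    (hxR : x ∈ Subgroup.normalizer (R : Set G))
    (hgenR : Subgroup.closure ((fun u => u⁻¹ * (x ^ 2 ^ (n - 1) * u * (x ^ 2 ^ (n - 1))⁻¹)) '' (R : Set G)) = R) :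
    ∀ Q : Subgroup G, IsPGroup q Q → R ≤ Subgroup.normalizer (Q : Set G) →
      x ∈ Subgroup.normalizer (Q : Set G) → ∀ c ∈ R, ∀ v ∈ Q, ρ (c * v * c⁻¹) = ρ v := by
  intro Q
  induction hM : Nat.card Q using Nat.strong_induction_on generalizing Q with
  | _ M ih =>
  intro hQ hRQ hxQ c0 hc0 v0 hv0
  classical
  have hq : q.Prime := Fact.out
  have hr : r.Prime := Fact.out
  have hsmall : ∀ Q' : Subgroup G, Q' < Q → R ≤ Subgroup.normalizer (Q' : Set G) →
      x ∈ Subgroup.normalizer (Q' : Set G) → ∀ c ∈ R, ∀ v ∈ Q', ρ (c * v * c⁻¹) = ρ v := by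
    intro Q' hlt
    have hcard : Nat.card Q' < M := by
      rw [← hM]
      refine lt_of_le_of_ne (Nat.le_of_dvd Nat.card_pos (Subgroup.card_dvd_of_le hlt.le)) fun he => hlt.ne ?_
      exact Subgroup.eq_of_le_of_card_ge hlt.le he.ge
    exact ih _ hcard Q' rfl (hQ.to_le hlt.le)
  have hcQ : ∀ c ∈ R, ∀ v ∈ Q, c * v * c⁻¹ ∈ Q := fun c hc v hv =>
    (Subgroup.mem_normalizer_iff.mp (hRQ hc) v).mp hv
  -- generators
  let gs : Set G := {g | ∃ c ∈ R, ∃ v ∈ Q, g = v⁻¹ * (c * v * c⁻¹)}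
  have hgsQ : Subgroup.closure gs ≤ Q := by
    rw [Subgroup.closure_le]
    rintro _ ⟨c, hc, v, hv, rfl⟩
    exact Q.mul_mem (Q.inv_mem hv) (hcQ c hc v hv)
  have hgsconj : ∀ d, d ∈ Subgroup.normalizer (Q : Set G) → (∀ c ∈ R, d * c * d⁻¹ ∈ R) →
      (Subgroup.closure gs).map (MulAut.conj d).toMonoidHom ≤ Subgroup.closure gs := by
    intro d hd hdR
    rw [MonoidHom.map_closure, Subgroup.closure_le]
    rintro _ ⟨_, ⟨c, hc, v, hv, rfl⟩, rfl⟩
    refine Subgroup.subset_closure ⟨d * c * d⁻¹, hdR c hc, d * v * d⁻¹,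
      (Subgroup.mem_normalizer_iff.mp hd v).mp hv, ?_⟩
    simp only [MulEquiv.coe_toMonoidHom, MulAut.conj_apply]
    group
  have hgsnorm : ∀ d, d ∈ Subgroup.normalizer (Q : Set G) → (∀ c ∈ R, d * c * d⁻¹ ∈ R) →
      d ∈ Subgroup.normalizer ((Subgroup.closure gs : Subgroup G) : Set G) := fun d hd hdR =>
    mem_normalizer_of_map (Subgroup.eq_of_le_of_card_ge (hgsconj d hd hdR)
      (Nat.card_congr (Subgroup.equivMapOfInjective _ _ (MulAut.conj d).injective).toEquiv).le)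
  by_cases hgen : Subgroup.closure gs = Q
  swap
  · have hfixg := hsmall _ (lt_of_le_of_ne hgsQ hgen)
      (fun d hd => hgsnorm d (hRQ hd) fun c hc => R.mul_mem (R.mul_mem hd hc) (R.inv_mem hd))
      (hgsnorm x hxQ fun c hc => (Subgroup.mem_normalizer_iff.mp hxR c).mp hc)
    set e := v0⁻¹ * (c0 * v0 * c0⁻¹) with he
    have hemem : e ∈ Subgroup.closure gs := Subgroup.subset_closure ⟨c0, hc0, v0, hv0, rfl⟩
    have hce := hfixg c0 hc0 e hemem
    have hiter : ∀ j : ℕ, ρ (c0 ^ j * v0 * (c0 ^ j)⁻¹) = ρ (v0 * e ^ j) := by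
      intro j
      induction j with
      | zero => simp
      | succ j ihj =>
        rw [show c0 ^ (j + 1) * v0 * (c0 ^ (j + 1))⁻¹ = c0 * (c0 ^ j * v0 * (c0 ^ j)⁻¹) * c0⁻¹ by
            rw [pow_succ']; group,
          map_mul, map_mul, ihj, ← map_mul, ← map_mul,
          show c0 * (v0 * e ^ j) * c0⁻¹ = c0 * v0 * c0⁻¹ * (c0 * e * c0⁻¹) ^ j by rw [conj_pow]; group,
          map_mul, map_pow, hce, ← map_pow, show c0 * v0 * c0⁻¹ = v0 * e by rw [he, mul_inv_cancel_left],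
          ← map_mul, mul_assoc, ← pow_succ']
    obtain ⟨t, ht⟩ := hR ⟨c0, hc0⟩
    have h1 := hiter (r ^ t)
    rw [show c0 ^ r ^ t = 1 from congrArg Subtype.val ht, one_mul, inv_one, mul_one, map_mul, map_pow] at h1
    have hcp : ρ e ^ r ^ t = 1 := by
      have h2 := congrArg (ρ v0⁻¹ * ·) h1
      simp only [← mul_assoc, ← map_mul, inv_mul_cancel, map_one, one_mul] at h2
      exact h2.symm
    obtain ⟨f, hf⟩ := hQ ⟨e, hgsQ hemem⟩
    have hce' : ρ e ^ q ^ f = 1 := by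
      rw [← map_pow, show e ^ q ^ f = 1 from congrArg Subtype.val hf, map_one]
    have hone : ρ e = 1 := by
      have := pow_gcd_eq_one.mpr ⟨hcp, hce'⟩
      rwa [show Nat.gcd (r ^ t) (q ^ f) = 1 from Nat.Coprime.pow t f ((Nat.coprime_primes hr hq).mpr hrq),
        pow_one] at this
    rw [show c0 * v0 * c0⁻¹ = v0 * e by rw [he, mul_inv_cancel_left], map_mul, hone, mul_one]
  -- commutators are central
  have hcentral : ∀ v ∈ Q, ∀ w ∈ Q, ∀ t ∈ Q,
      ρ t * ρ (v * w * v⁻¹ * w⁻¹) = ρ (v * w * v⁻¹ * w⁻¹) * ρ t := by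
    rcases eq_or_ne Q ⊥ with hb | hb
    · intro v hv w hw t ht
      rw [hb, Subgroup.mem_bot] at hv hw ht
      subst hv hw ht
      simp
    haveI : Nontrivial Q := Q.nontrivial_iff_ne_bot.mpr hb
    haveI : Group.IsNilpotent Q := hQ.isNilpotent
    have hlt : ⁅Q, Q⁆ < Q := by
      have h1 : (commutator Q).map Q.subtype = ⁅Q, Q⁆ := by
        rw [commutator_def, Subgroup.map_commutator, ← MonoidHom.range_eq_map, Subgroup.range_subtype]
      rw [← h1]
      have h2 := Subgroup.map_lt_map_iff_of_injective (Q.subtype_injective) |>.mpr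
        (Group.IsSolvable.commutator_lt_top_of_nontrivial Q)
      rwa [← MonoidHom.range_eq_map, Subgroup.range_subtype] at h2
    have hcn : ∀ d ∈ Subgroup.normalizer (Q : Set G), d ∈ Subgroup.normalizer ((⁅Q, Q⁆ : Subgroup G) : Set G) :=
      fun d hd => mem_normalizer_of_map (by rw [Subgroup.map_commutator, map_of_mem_normalizer hd])
    have hfixcomm := hsmall _ hlt (fun d hd => hcn d (hRQ hd)) (hcn x hxQ)
    intro v hv w hw t ht
    have hd0 : v * w * v⁻¹ * w⁻¹ ∈ ⁅Q, Q⁆ := by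
      rw [← commutatorElement_def]; exact Subgroup.commutator_mem_commutator hv hw
    generalize v * w * v⁻¹ * w⁻¹ = d at hd0 ⊢
    rw [← hgen] at ht
    induction ht using Subgroup.closure_induction with
    | mem z hz =>
      obtain ⟨c, hc, t, ht, rfl⟩ := hz
      have h1 := hfixcomm c hc (t * d * t⁻¹) ((Subgroup.mem_normalizer_iff.mp
        (le_normalizer_commutator Q ht) d).mp hd0)
      set ct := t⁻¹ * (c * t * c⁻¹) with hct
      have h2 : ρ ct * ρ d * ρ ct⁻¹ = ρ d := by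
        have h3 : ρ (c * t * c⁻¹ * d * (c * t * c⁻¹)⁻¹) = ρ (t * d * t⁻¹) := by
          rw [← h1, show c * (t * d * t⁻¹) * c⁻¹ = c * t * c⁻¹ * (c * d * c⁻¹) * (c * t * c⁻¹)⁻¹ by group,
            map_mul ρ _ ((c * t * c⁻¹)⁻¹), map_mul ρ _ ((c * t * c⁻¹)⁻¹), map_mul ρ (c * t * c⁻¹) d,
            map_mul ρ (c * t * c⁻¹) (c * d * c⁻¹), hfixcomm c hc d hd0]
        calc ρ ct * ρ d * ρ ct⁻¹ = ρ t⁻¹ * ρ (c * t * c⁻¹ * d * (c * t * c⁻¹)⁻¹) * ρ t := by
              simp only [hct, ← map_mul]; congr 1; group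
          _ = ρ t⁻¹ * ρ (t * d * t⁻¹) * ρ t := by rw [h3]
          _ = ρ d := by simp only [← map_mul]; congr 1; group
      calc ρ ct * ρ d = ρ ct * ρ d * ρ ct⁻¹ * ρ ct := by
            rw [mul_assoc (ρ ct * ρ d), ← map_mul _ _ ct, inv_mul_cancel, map_one, mul_one]
        _ = ρ d * ρ ct := by rw [h2]
    | one => rw [map_one, one_mul, mul_one]
    | mul a b _ _ iha ihb => rw [map_mul, mul_assoc, ihb, ← mul_assoc, iha, mul_assoc]
    | inv a _ iha =>
      calc ρ a⁻¹ * ρ d = ρ a⁻¹ * ρ d * (ρ a * ρ a⁻¹) := by rw [← map_mul ρ a, mul_inv_cancel, map_one, mul_one]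
        _ = ρ a⁻¹ * (ρ d * ρ a) * ρ a⁻¹ := by simp only [mul_assoc]
        _ = ρ d * ρ a⁻¹ := by
          rw [← iha, ← mul_assoc (ρ a⁻¹), ← map_mul ρ a⁻¹ a, inv_mul_cancel, map_one, one_mul]
  -- the centralised subspace
  let S : Submodule K V :=
    { carrier := {w | ∀ c ∈ R, ∀ v ∈ Q, ρ (c * v * c⁻¹) w = ρ v w}
      zero_mem' := fun c _ v _ => by rw [map_zero, map_zero]
      add_mem' := fun {a b} ha hb c hc v hv => by rw [map_add, map_add, ha c hc v hv, hb c hc v hv]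
      smul_mem' := fun t a ha c hc v hv => by rw [map_smul, map_smul, ha c hc v hv] }
  suffices hS : S = ⊤ by exact LinearMap.ext fun w => (hS.ge Submodule.mem_top : w ∈ S) c0 hc0 v0 hv0
  refine eq_top_of_good (ρ := ρ) hQ hqK h2K hxQ hxN hfix S ?_ ?_ ?_
  · intro t ht w hw c hc v hv
    have ht' : c⁻¹ * t * c ∈ Q := by
      have := hcQ c⁻¹ (R.inv_mem hc) t ht
      rwa [inv_inv] at this
    have h1 : ρ t w = ρ (c⁻¹ * t * c) w := by
      have h := hw c hc _ ht'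
      rwa [show c * (c⁻¹ * t * c) * c⁻¹ = t by group] at h
    rw [← rho_mul, show c * v * c⁻¹ * t = c * (v * (c⁻¹ * t * c)) * c⁻¹ by group, hw c hc _ (Q.mul_mem hv ht'),
      rho_mul, ← h1]
  · intro w hw c hc v hv
    have hc' : x⁻¹ * c * x ∈ R := by
      simpa using (Subgroup.mem_normalizer_iff.mp (Subgroup.inv_mem _ hxR) c).mp hc
    have hv' : x⁻¹ * v * x ∈ Q := by
      simpa using (Subgroup.mem_normalizer_iff.mp (Subgroup.inv_mem _ hxQ) v).mp hv
    have h1 := congrArg (ρ x) (hw _ hc' _ hv')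
    rw [← rho_mul, ← rho_mul,
      show x * (x⁻¹ * c * x * (x⁻¹ * v * x) * (x⁻¹ * c * x)⁻¹) = c * v * c⁻¹ * x by group,
      show x * (x⁻¹ * v * x) = v * x by group, rho_mul (c * v * c⁻¹) x, rho_mul v x] at h1
    exact h1
  intro A hAgood w hw
  obtain ⟨hA, a, han, hAfix, hfixA⟩ := hAgood
  haveI : Nontrivial A := Submodule.nontrivial_iff_ne_bot.mpr hA.1
  obtain ⟨m, hm, hnm⟩ : ∃ m, m ≠ 0 ∧ n = m + a := ⟨n - a, by omega, by omega⟩
  set z := x ^ 2 ^ a with hz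
  set y := x ^ 2 ^ (n - 1) with hy
  have hzy : z ^ 2 ^ (m - 1) = y := by
    rw [hz, hy, ← pow_mul, ← pow_add]; congr 2; omega
  have hzN : z ^ 2 ^ m = 1 := by
    rw [hz, ← pow_mul, ← pow_add, show a + m = n by omega, hxN]
  have hy2 : y ^ 2 = 1 := by rw [hy, ← pow_mul, ← pow_succ, Nat.sub_add_cancel (by omega), hxN]
  have hyi : y⁻¹ = y := by rw [inv_eq_iff_mul_eq_one, ← sq, hy2]
  have hyQ : y ∈ Subgroup.normalizer (Q : Set G) := Subgroup.pow_mem _ hxQ _
  have hyR : y ∈ Subgroup.normalizer (R : Set G) := Subgroup.pow_mem _ hxR _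
  have hzQ : z ∈ Subgroup.normalizer (Q : Set G) := Subgroup.pow_mem _ hxQ _
  have hzR : z ∈ Subgroup.normalizer (R : Set G) := Subgroup.pow_mem _ hxR _
  set H := stab ρ A
  have hQH : Q ≤ H := inv_iff_le_stab.mp hA.2.1
  have hzH : z ∈ H := hAfix
  have hInv : Inv ρ H A := fun g hg v hv => apply_mem_of_mem_stab hg hv
  set ρA := restr ρ H A hInv with hρA
  have hirrA : Irred ρA (Q.subgroupOf H) := by
    intro U hU
    rcases hA.2.2 (U.map A.subtype) (Submodule.map_subtype_le A U) (by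
      rintro g hg _ ⟨w, hw, rfl⟩
      exact ⟨_, hU ⟨g, hQH hg⟩ hg w hw, rfl⟩) with h | h
    · left
      refine Submodule.map_injective_of_injective A.injective_subtype ?_
      rw [h, Submodule.map_bot]
    · right
      refine Submodule.map_injective_of_injective A.injective_subtype ?_
      rw [h, Submodule.map_subtype_top]
  have hQA : IsPGroup q (Q.subgroupOf H) := hQ.of_equiv (Subgroup.subgroupOfEquivOfLe hQH).symm
  have hcommA : ∀ v ∈ Q.subgroupOf H, ∀ w ∈ Q.subgroupOf H, IsScalar ρA (v * w * v⁻¹ * w⁻¹) := by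
    intro v hv w hw
    refine schur hirrA _ fun t ht => LinearMap.ext fun e => Subtype.ext ?_
    exact LinearMap.congr_fun (hcentral _ hv _ hw _ ht) (e : V)
  let Sc : G → Prop := fun g => ∃ s : K, ∀ b ∈ A, ρ g b = s • b
  have hScA : ∀ g : H, IsScalar ρA g ↔ Sc (g : G) := fun g =>
    ⟨fun ⟨s, hs⟩ => ⟨s, fun b hb => congrArg Subtype.val (LinearMap.congr_fun hs ⟨b, hb⟩)⟩,
      fun ⟨s, hs⟩ => ⟨s, LinearMap.ext fun b => Subtype.ext (hs b b.2)⟩⟩
  let eQ : Q ≃* Q.subgroupOf H := (Subgroup.subgroupOfEquivOfLe hQH).symm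
  let M : Subgroup Q := (scalars ρA (Q.subgroupOf H)).comap eQ.toMonoidHom
  have hM' : ∀ v : Q, v ∈ M ↔ Sc (v : G) := fun v => hScA _
  haveI hMn : M.Normal := (scalars_normal ρA (Q.subgroupOf H)).comap _
  -- `R` fixes the scalar values
  have hRs : ∀ c ∈ R, ∀ v ∈ Q, ∀ s : K, (∀ b ∈ A, ρ v b = s • b) → ∀ b ∈ A, ρ (c * v * c⁻¹) b = s • b := by
    intro c hc
    rw [← hgenR] at hc
    induction hc using Subgroup.closure_induction with
    | mem c hc =>
      obtain ⟨u, hu, rfl⟩ := hc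
      intro v hv s hs b hb
      have h1 := scalar_fixed ρ hQ hqK h2K hxQ hxN hfix hA hv hs
      rw [← hy] at h1
      have hv1 : y * v * y⁻¹ ∈ Q := (Subgroup.mem_normalizer_iff.mp hyQ v).mp hv
      have hv2 : u * (y * v * y⁻¹) * u⁻¹ ∈ Q := hcQ u hu _ hv1
      have h2 : ∀ w ∈ A.map (ρ u), ρ (u * (y * v * y⁻¹) * u⁻¹) w = s • w := by
        rintro _ ⟨b', hb', rfl⟩
        rw [← rho_mul, show u * (y * v * y⁻¹) * u⁻¹ * u = u * (y * v * y⁻¹) by group, rho_mul, h1 b' hb', map_smul]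
      have h3 := scalar_fixed ρ hQ hqK h2K hxQ hxN hfix (hA.map (hRQ hu)) hv2 h2
      rw [← hy] at h3
      have h4 := congrArg (ρ u⁻¹) (h3 (ρ u b) (Submodule.mem_map_of_mem hb))
      rw [map_smul, rho_inv_apply, ← rho_mul, ← rho_mul] at h4
      show ρ (u⁻¹ * (y * u * y⁻¹) * v * (u⁻¹ * (y * u * y⁻¹))⁻¹) b = s • b
      rw [show u⁻¹ * (y * u * y⁻¹) * v * (u⁻¹ * (y * u * y⁻¹))⁻¹ =
        u⁻¹ * (y * (u * (y⁻¹ * v * y) * u⁻¹) * y⁻¹) * u by group, hyi]
      rw [hyi] at h4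
      exact h4
    | one => intro v _ s hs b hb; rw [one_mul, inv_one, mul_one]; exact hs b hb
    | mul a b ha hb iha ihb =>
      intro v hv s hs e he
      rw [show a * b * v * (a * b)⁻¹ = a * (b * v * b⁻¹) * a⁻¹ by group]
      have hbR : b ∈ R := by rw [← hgenR]; exact hb
      exact iha _ (hcQ b hbR v hv) s (ihb v hv s hs) e he
    | inv a ha iha =>
      have haR : a ∈ R := by rw [← hgenR]; exact ha
      intro v hv s hs
      have hk : ∀ k : ℕ, ∀ b ∈ A, ρ (a ^ k * v * (a ^ k)⁻¹) b = s • b := by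
        intro k
        induction k with
        | zero => intro b hb; rw [pow_zero, one_mul, inv_one, mul_one]; exact hs b hb
        | succ k ihk =>
          rw [show a ^ (k + 1) * v * (a ^ (k + 1))⁻¹ = a * (a ^ k * v * (a ^ k)⁻¹) * a⁻¹ by rw [pow_succ']; group]
          exact iha _ (hcQ _ (R.pow_mem haR k) v hv) s ihk
      have := hk (orderOf a - 1)
      rwa [show a ^ (orderOf a - 1) = a⁻¹ by
        rw [eq_inv_iff_mul_eq_one, ← pow_succ, Nat.sub_add_cancel (orderOf_pos a), pow_orderOf_eq_one]] at this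
  -- the automorphisms of `Q ⧸ M`
  letI : CommGroup (Q ⧸ M) :=
    { (inferInstance : Group (Q ⧸ M)) with
      mul_comm := fun b c => QuotientGroup.induction_on b fun b => QuotientGroup.induction_on c fun c => by
        rw [← QuotientGroup.mk_mul, ← QuotientGroup.mk_mul, QuotientGroup.eq,
          show (b * c)⁻¹ * (c * b) = c⁻¹ * b⁻¹ * (c⁻¹)⁻¹ * (b⁻¹)⁻¹ by group]
        exact hcommA (eQ c⁻¹ : H) (eQ c⁻¹).2 (eQ b⁻¹ : H) (eQ b⁻¹).2 }
  let Nrm : Subgroup G :=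
    { carrier := {g | g ∈ Subgroup.normalizer (Q : Set G) ∧ ∀ v ∈ Q, Sc v ↔ Sc (g * v * g⁻¹)}
      one_mem' := ⟨one_mem _, fun v _ => by rw [one_mul, inv_one, mul_one]⟩
      mul_mem' := fun {g h} hg hh => ⟨mul_mem hg.1 hh.1, fun v hv => by
        rw [hh.2 v hv, hg.2 _ ((Subgroup.mem_normalizer_iff.mp hh.1 v).mp hv),
          show g * (h * v * h⁻¹) * g⁻¹ = g * h * v * (g * h)⁻¹ by group]⟩
      inv_mem' := fun {g} hg => ⟨inv_mem hg.1, fun v hv => by
        rw [hg.2 (g⁻¹ * v * g⁻¹⁻¹) ((Subgroup.mem_normalizer_iff.mp (inv_mem hg.1) v).mp hv),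
          show g * (g⁻¹ * v * g⁻¹⁻¹) * g⁻¹ = v by group]⟩ }
  have hpres : ∀ g : Nrm, M.map (Q.normalizerMonoidHom ⟨g, g.2.1⟩).toMonoidHom = M := by
    intro g
    ext v
    constructor
    · rintro ⟨u, hu, rfl⟩
      rw [SetLike.mem_coe, hM'] at hu
      rw [hM']
      exact (g.2.2 _ u.2).mp hu
    · intro hv
      refine ⟨(Q.normalizerMonoidHom ⟨g, g.2.1⟩).symm v, ?_, MulEquiv.apply_symm_apply _ v⟩
      rw [SetLike.mem_coe, hM', g.2.2 _ (Subtype.prop _)]
      have h := congrArg Subtype.val (MulEquiv.apply_symm_apply (Q.normalizerMonoidHom ⟨g, g.2.1⟩) v)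
      change (g : G) * _ * (g : G)⁻¹ = (v : G) at h
      rw [h, ← hM']
      exact hv
  let φ : Nrm →* MulAut (Q ⧸ M) :=
    { toFun := fun g => QuotientGroup.congr M M (Q.normalizerMonoidHom ⟨g, g.2.1⟩) (hpres g)
      map_one' := MulEquiv.ext fun e => QuotientGroup.induction_on e fun v => by
        show ((Q.normalizerMonoidHom ⟨((1 : Nrm) : G), _⟩ v : Q) : Q ⧸ M) = (v : Q ⧸ M)
        congr 1
        exact Subtype.ext (by show (1 : G) * (v : G) * (1 : G)⁻¹ = v; group)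
      map_mul' := fun g h => MulEquiv.ext fun e => QuotientGroup.induction_on e fun v => by
        show ((Q.normalizerMonoidHom ⟨((g * h : Nrm) : G), _⟩ v : Q) : Q ⧸ M) =
          ((Q.normalizerMonoidHom ⟨(g : G), g.2.1⟩ (Q.normalizerMonoidHom ⟨(h : G), h.2.1⟩ v) : Q) : Q ⧸ M)
        congr 1
        exact Subtype.ext (by
          show (g : G) * h * (v : G) * ((g : G) * h)⁻¹ = (g : G) * ((h : G) * v * (h : G)⁻¹) * (g : G)⁻¹
          group) }
  have hRN : R ≤ Nrm := fun c hc => ⟨hRQ hc, fun v hv => by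
    constructor
    · rintro ⟨s, hs⟩; exact ⟨s, hRs c hc v hv s hs⟩
    · rintro ⟨s, hs⟩
      refine ⟨s, ?_⟩
      have := hRs c⁻¹ (R.inv_mem hc) _ (hcQ c hc v hv) s hs
      rwa [show c⁻¹ * (c * v * c⁻¹) * c⁻¹⁻¹ = v by group] at this⟩
  have hstabN : ∀ g ∈ H, g ∈ Subgroup.normalizer (Q : Set G) → g ∈ Nrm := by
    intro g hg hgQ
    refine ⟨hgQ, fun v hv => ⟨fun ⟨s, hs⟩ => ⟨s, fun b hb => ?_⟩, fun ⟨s, hs⟩ => ⟨s, fun b hb => ?_⟩⟩⟩
    · rw [rho_mul, rho_mul, hs _ (apply_mem_of_mem_stab (H.inv_mem hg) hb), map_smul, rho_apply_inv]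
    · have h := congrArg (ρ g⁻¹) (hs _ (apply_mem_of_mem_stab hg hb))
      rwa [map_smul, rho_inv_apply, ← rho_mul, ← rho_mul,
        show g⁻¹ * (g * v * g⁻¹) * g = v by group] at h
  have hzN' : z ∈ Nrm := hstabN z hzH hzQ
  let zb : MulAut (Q ⧸ M) := φ ⟨z, hzN'⟩
  let Rb : Subgroup (MulAut (Q ⧸ M)) := (R.subgroupOf Nrm).map φ
  have hyb : zb ^ 2 ^ (m - 1) = φ ⟨y, hzy ▸ Nrm.pow_mem hzN' _⟩ := by
    rw [← map_pow]; congr 1; exact Subtype.ext hzy
  -- the involution centralises the image of `R`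
  have hcommy : ∀ u ∈ Rb, zb ^ 2 ^ (m - 1) * u * (zb ^ 2 ^ (m - 1))⁻¹ = u := by
    by_cases hmoved : ∃ v ∈ Q.subgroupOf H, ¬ IsScalar ρA (v⁻¹ *
        ((⟨z, hzH⟩ : H) ^ 2 ^ (m - 1) * v * ((⟨z, hzH⟩ : H) ^ 2 ^ (m - 1))⁻¹))
    · have hzQA : (⟨z, hzH⟩ : H) ∈ Subgroup.normalizer ((Q.subgroupOf H) : Set H) := by
        rw [Subgroup.mem_normalizer_iff]
        exact fun h => Subgroup.mem_normalizer_iff.mp hzQ (h : G)
      obtain ⟨hqm, A1, hA1, hdispA⟩ := displacement ρA (Q.subgroupOf H) hQA hq2 hirrA hcommA hqK h2K ⟨z, hzH⟩ hm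
        hzQA (Subtype.ext hzN) (fun b hb => Subtype.ext (hfixA b b.2 (congrArg Subtype.val hb))) hmoved
      let A2 : Subgroup Q := A1.comap eQ.toMonoidHom
      have hA2 : Nat.card (A2.map (QuotientGroup.mk' M)) ≤ q ^ 2 := by
        rw [← Subgroup.relIndex_ker, QuotientGroup.ker_mk',
          show M.relIndex A2 = (scalars ρA (Q.subgroupOf H)).relIndex (A2.map eQ.toMonoidHom) from
            Subgroup.relIndex_comap _ _ _, Subgroup.map_comap_eq_self_of_surjective eQ.surjective]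
        exact hA1
      refine commute_of_displacement hq2 hr2 hrq (hQ.to_quotient M) Rb ((hR.of_equiv
        (Subgroup.subgroupOfEquivOfLe hRN).symm).map φ) zb ?_ hqm (by rw [← map_pow, show
        (⟨z, hzN'⟩ : Nrm) ^ 2 ^ m = 1 from Subtype.ext hzN, map_one]) ?_
      · refine Subgroup.le_normalizer_map φ ⟨⟨z, hzN'⟩, ?_, rfl⟩
        rw [SetLike.mem_coe, Subgroup.mem_normalizer_iff]
        exact fun g => Subgroup.mem_normalizer_iff.mp hzR (g : G)
      · refine le_trans ?_ (le_of_eq_of_le (Nat.card_coe_set_eq _).symm hA2)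
        refine Set.ncard_le_ncard ?_ (Set.toFinite _)
        rintro _ ⟨t, rfl⟩
        induction t using QuotientGroup.induction_on with | _ v =>
        have h1 := hdispA (eQ v)
        obtain ⟨g, hg, s, hs, hgs⟩ := Subgroup.mem_sup_of_normal_right.mp h1
        refine ⟨eQ.symm g, ?_, ?_⟩
        · show eQ (eQ.symm g) ∈ A1
          rwa [eQ.apply_symm_apply]
        · simp only [div_eq_mul_inv]
          show ((eQ.symm g : Q) : Q ⧸ M) = ((Q.normalizerMonoidHom ⟨z, _⟩ v : Q) : Q ⧸ M) * (v : Q ⧸ M)⁻¹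
          rw [← QuotientGroup.mk_inv, ← QuotientGroup.mk_mul, QuotientGroup.eq]
          show eQ ((eQ.symm g)⁻¹ * _) ∈ scalars ρA (Q.subgroupOf H)
          rw [map_mul, map_inv, eQ.apply_symm_apply,
            show eQ (Q.normalizerMonoidHom ⟨z, hzQ⟩ v * v⁻¹) =
              (Q.subgroupOf H).normalizerMonoidHom ⟨⟨z, hzH⟩, hzQA⟩ (eQ v) * (eQ v)⁻¹ from rfl,
            ← hgs, inv_mul_cancel_left]
          exact hs
    · push Not at hmoved
      intro u _
      have : zb ^ 2 ^ (m - 1) = 1 := by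
        rw [hyb]
        refine MulEquiv.ext fun e => QuotientGroup.induction_on e fun v => ?_
        show ((Q.normalizerMonoidHom ⟨y, _⟩ v : Q) : Q ⧸ M) = (v : Q ⧸ M)
        rw [eq_comm, QuotientGroup.eq, hM']
        have h := (hScA _).mp (hmoved ⟨(v : G), hQH v.2⟩ v.2)
        simp only [Subgroup.coe_mul, InvMemClass.coe_inv, SubmonoidClass.coe_pow, hzy] at h
        exact h
      rw [this, one_mul, inv_one, mul_one]
  -- `R` acts trivially
  have htriv : ∀ c (hc : c ∈ R), φ ⟨c, hRN hc⟩ = 1 := by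
    have hker : ∀ c ∈ R, ∃ h : c ∈ Nrm, φ ⟨c, h⟩ = 1 := by
      intro c hc
      rw [← hgenR] at hc
      induction hc using Subgroup.closure_induction with
      | mem c hc =>
        obtain ⟨u, hu, rfl⟩ := hc
        have hyN : y ∈ Nrm := hzy ▸ Nrm.pow_mem hzN' _
        refine ⟨Nrm.mul_mem (Nrm.inv_mem (hRN hu)) (Nrm.mul_mem (Nrm.mul_mem hyN (hRN hu)) (Nrm.inv_mem hyN)), ?_⟩
        show φ ((⟨u, hRN hu⟩ : Nrm)⁻¹ * (⟨y, hyN⟩ * ⟨u, hRN hu⟩ * (⟨y, hyN⟩ : Nrm)⁻¹)) = 1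
        have h := hcommy (φ ⟨u, hRN hu⟩) ⟨⟨u, hRN hu⟩, hu, rfl⟩
        rw [hyb] at h
        rw [map_mul, map_mul, map_mul, map_inv, map_inv, h, inv_mul_cancel]
      | one => exact ⟨Nrm.one_mem, map_one φ⟩
      | mul a b _ _ iha ihb =>
        obtain ⟨h1, e1⟩ := iha
        obtain ⟨h2, e2⟩ := ihb
        refine ⟨Nrm.mul_mem h1 h2, ?_⟩
        show φ (⟨a, h1⟩ * ⟨b, h2⟩) = 1
        rw [map_mul, e1, e2, one_mul]
      | inv a _ iha =>
        obtain ⟨h1, e1⟩ := iha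
        refine ⟨Nrm.inv_mem h1, ?_⟩
        show φ (⟨a, h1⟩ : Nrm)⁻¹ = 1
        rw [map_inv, e1, inv_one]
    intro c hc
    obtain ⟨h, e⟩ := hker c hc
    exact e
  intro c hc v hv
  set e := v⁻¹ * (c * v * c⁻¹) with he
  have heQ : e ∈ Q := Q.mul_mem (Q.inv_mem hv) (hcQ c hc v hv)
  obtain ⟨s, hs⟩ : Sc e := by
    have h := congrArg (fun f : MulAut (Q ⧸ M) => f ((⟨v, hv⟩ : Q) : Q ⧸ M)) (htriv c hc)
    change ((Q.normalizerMonoidHom ⟨c, _⟩ ⟨v, hv⟩ : Q) : Q ⧸ M) = ((⟨v, hv⟩ : Q) : Q ⧸ M) at h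
    rw [eq_comm, QuotientGroup.eq, hM'] at h
    exact h
  have hiter : ∀ j : ℕ, ∀ b ∈ A, ρ (c ^ j * v * (c ^ j)⁻¹) b = s ^ j • ρ v b := by
    intro j
    induction j with
    | zero => intro b _; rw [pow_zero, one_mul, inv_one, mul_one, pow_zero, one_smul]
    | succ j ihj =>
      intro b hb
      have hce := hRs (c ^ j) (R.pow_mem hc j) e heQ s hs
      rw [show c ^ (j + 1) * v * (c ^ (j + 1))⁻¹ = c ^ j * v * (c ^ j)⁻¹ * (c ^ j * e * (c ^ j)⁻¹) by
          rw [he, pow_succ]; group,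
        rho_mul, hce b hb, map_smul, ihj b hb, smul_smul, ← pow_succ']
  obtain ⟨t, ht⟩ := hR ⟨c, hc⟩
  obtain ⟨b0, hb0, hb0ne⟩ := (Submodule.ne_bot_iff A).mp hA.1
  have hst : s ^ r ^ t = 1 := by
    have h := hiter (r ^ t) b0 hb0
    rw [show c ^ r ^ t = 1 from congrArg Subtype.val ht, one_mul, inv_one, mul_one] at h
    have hne : ρ v b0 ≠ 0 := fun h0 => hb0ne (rho_injective v (by rw [h0, map_zero]))
    exact smul_left_injective K hne (show s ^ r ^ t • ρ v b0 = (1 : K) • ρ v b0 by rw [← h, one_smul])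
  obtain ⟨f, hf⟩ := hQ ⟨e, heQ⟩
  have hsf : s ^ q ^ f = 1 := by
    have hpw : ∀ k : ℕ, ρ (e ^ k) b0 = s ^ k • b0 := by
      intro k
      induction k with
      | zero => rw [pow_zero, pow_zero, map_one, Module.End.one_apply, one_smul]
      | succ k ihk => rw [pow_succ', rho_mul, ihk, map_smul, hs _ hb0, smul_smul, ← pow_succ]
    have h := hpw (q ^ f)
    rw [show e ^ q ^ f = 1 from congrArg Subtype.val hf, map_one, Module.End.one_apply] at h
    exact smul_left_injective K hb0ne (show s ^ q ^ f • b0 = (1 : K) • b0 by rw [← h, one_smul])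
  have hs1 : s = 1 := by
    have := pow_gcd_eq_one.mpr ⟨hst, hsf⟩
    rwa [show Nat.gcd (r ^ t) (q ^ f) = 1 from Nat.Coprime.pow t f ((Nat.coprime_primes hr hq).mpr hrq),
      pow_one] at this
  have := hiter 1 w hw
  rwa [pow_one, hs1, one_pow, one_smul] at this

end Cfsg.Agent.Lib.TwoPowerFPF
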