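import Cfsg.Agent.Lib.TwoPowerFPF.Weil

set_option autoImplicit false
set_option linter.unusedSectionVars false
set_option linter.style.haveILetI false

/-! A group of odd prime power order normalised by an element with two-dimensional displacement. -/

namespace Cfsg.Agent.Lib.TwoPowerFPF

open Cfsg.Agent.Lib.HallHigman

universe u v w

theorem dim_eq {N D C : ℕ} (hD : 2 ≤ D) (h1 : D ^ 2 ≤ (N - 1) * C) (h2 : D ≤ C) (h3 : N * C + 1 ≤ D ^ 2 + N) :
    D + 1 = N := by
  obtain ⟨N, rfl⟩ : ∃ N', N = N' + 1 := ⟨N - 1, by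
    rcases Nat.eq_zero_or_pos N with rfl | h
    · simp at h1; subst h1; omega
    · omega⟩
  rw [Nat.add_sub_cancel] at h1
  have hle : N ≤ D := by
    by_contra h
    nlinarith
  have hge : D ≤ N := by
    by_contra h
    nlinarith
  omega

theorem exponent_one {q j m : ℕ} (hq : q.Prime) (hq2 : q ≠ 2) (h2 : 2 ≤ q ^ j) (h : q ^ j + 1 = 2 ^ m) :
    j = 1 ∧ 2 ≤ m := by
  have hm : 2 ≤ m := by
    by_contra hlt
    have : m = 0 ∨ m = 1 := by omega
    rcases this with rfl | rfl <;> omega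
  refine ⟨?_, hm⟩
  have h4 : 4 ∣ q ^ j + 1 := h ▸ (pow_dvd_pow 2 hm : 2 ^ 2 ∣ 2 ^ m)
  have hodd : Odd q := hq.odd_of_ne_two hq2
  rcases Nat.even_or_odd j with ⟨t, rfl⟩ | hj
  · exfalso
    obtain ⟨a, ha⟩ := (hodd.pow : Odd (q ^ t))
    rw [pow_add, ha] at h4
    obtain ⟨c, hc⟩ := h4
    have : (2 * a + 1) * (2 * a + 1) + 1 = 4 * (a * a + a) + 2 := by ring
    omega
  · set S : ℤ := ∑ i ∈ Finset.range j, (-(q : ℤ)) ^ i with hS
    have hmul : ((q : ℤ) + 1) * S = (q : ℤ) ^ j + 1 := by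
      have := geom_sum_mul (-(q : ℤ)) j
      rw [hj.neg_pow, ← hS] at this
      linarith
    have hSodd : ¬ (2 : ℤ) ∣ S := by
      intro hd
      have h1 : ((S : ℤ) : ZMod 2) = 0 := (ZMod.intCast_zmod_eq_zero_iff_dvd S 2).mpr hd
      rw [hS] at h1
      push_cast at h1
      have hq1 : ((q : ℕ) : ZMod 2) = 1 := by
        obtain ⟨a, ha⟩ := hodd
        rw [ha]; push_cast
        rw [show (2 : ZMod 2) = 0 from rfl, zero_mul, zero_add]
      have hneg : (-(q : ZMod 2)) = 1 := by rw [hq1]; decide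
      simp only [hneg, one_pow, Finset.sum_const, Finset.card_range, nsmul_eq_mul, mul_one] at h1
      obtain ⟨a, ha⟩ := hj
      rw [ha] at h1
      push_cast at h1
      rw [show (2 : ZMod 2) = 0 from rfl, zero_mul, zero_add] at h1
      exact one_ne_zero h1
    have hnn : 0 ≤ S := by
      by_contra hneg
      push Not at hneg
      have : ((q : ℤ) + 1) * S < 0 := mul_neg_of_pos_of_neg (by positivity) hneg
      rw [hmul] at this
      have : (0 : ℤ) < (q : ℤ) ^ j + 1 := by positivity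
      linarith
    obtain ⟨s, hs⟩ : ∃ s : ℕ, S = (s : ℤ) := ⟨S.toNat, (Int.toNat_of_nonneg hnn).symm⟩
    have hnat : (q + 1) * s = 2 ^ m := by
      rw [← h]
      exact_mod_cast (hs ▸ hmul)
    obtain ⟨b, -, hb⟩ := (Nat.dvd_prime_pow Nat.prime_two).mp (Dvd.intro_left _ hnat : s ∣ 2 ^ m)
    rcases Nat.eq_zero_or_pos b with rfl | hb0
    · rw [pow_zero] at hb
      subst hb
      rw [mul_one, ← h] at hnat
      have h1 : q ^ j = q ^ 1 := by rw [pow_one]; omega
      exact Nat.pow_right_injective hq.two_le h1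
    · exact absurd (by rw [hs, hb]; exact_mod_cast dvd_pow_self 2 hb0.ne' : (2 : ℤ) ∣ S) hSodd

theorem not_small {q r j m C : ℕ} (hr : r.Prime) (hr2 : r ≠ 2) (hrq : r ≠ q) (hq : q.Prime) (hqm : q + 1 = 2 ^ m)
    (hj : 2 ≤ r ^ j) (h1 : r ^ j ≤ C) (h2 : (r ^ j - 2) ^ 2 ≤ C) (h3 : 2 ^ m * C + 1 ≤ (r ^ j) ^ 2 + 2 ^ m) :
    False := by
  have hj1 : 1 ≤ j := by
    rcases Nat.eq_zero_or_pos j with rfl | h
    · simp at hj
    · exact h
  have hr3 : 3 ≤ r := by have := hr.two_le; omega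
  have hrD : r ≤ r ^ j := Nat.le_self_pow (by omega) r
  have hm2 : 2 ≤ m := by
    by_contra hlt
    have : m = 0 ∨ m = 1 := by omega
    have := hq.two_le
    rcases ‹m = 0 ∨ m = 1› with rfl | rfl <;> omega
  obtain ⟨E, hE⟩ : ∃ E, r ^ j = E + 2 := ⟨r ^ j - 2, by omega⟩
  rw [hE, Nat.add_sub_cancel] at h2
  rw [hE] at h1 h3
  rcases Nat.eq_or_lt_of_le hm2 with rfl | hm3
  · have hq3 : q = 3 := by omega
    have hr5 : 5 ≤ r := by
      by_contra hlt
      have : r = 3 ∨ r = 4 := by omega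
      rcases this with rfl | rfl
      · exact hrq hq3.symm
      · exact absurd hr (by norm_num)
    have : 3 ≤ E := by omega
    nlinarith
  · have h8 : 8 ≤ 2 ^ m := (pow_le_pow_right₀ (by norm_num) hm3 : 2 ^ 3 ≤ 2 ^ m)
    have hE1 : 1 ≤ E := by omega
    rcases Nat.eq_or_lt_of_le hE1 with rfl | hE2
    · nlinarith
    · have h4 : 8 * E ^ 2 ≤ 2 ^ m * C := Nat.mul_le_mul h8 h2
      nlinarith

variable {K : Type w} {G : Type u} {V : Type v} [Field K] [Group G] [Finite G] [AddCommGroup V] [Module K V]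
  [FiniteDimensional K V]

/-- The centraliser bound when `Q` is generated by commutators with the involution. -/
theorem count_gen [IsAlgClosed K] [Nontrivial V] {q : ℕ} [Fact q.Prime] (ρ : G →* Module.End K V) (Q : Subgroup G)
    (hQ : IsPGroup q Q) (hq2 : q ≠ 2) (hirr : Irred ρ Q)
    (hcomm : ∀ v ∈ Q, ∀ w ∈ Q, IsScalar ρ (v * w * v⁻¹ * w⁻¹))
    (hqK : (q : K) ≠ 0) (h2K : (2 : K) ≠ 0)
    (z : G) {m : ℕ} (hm : m ≠ 0) (hzQ : z ∈ Subgroup.normalizer (Q : Set G)) (hzN : z ^ 2 ^ m = 1)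
    (hgen : Subgroup.closure ((fun v => v⁻¹ * (z ^ 2 ^ (m - 1) * v * (z ^ 2 ^ (m - 1))⁻¹)) '' (Q : Set G)) = Q) :
    (scalars ρ Q).index = Module.finrank K V ^ 2 ∧
      2 ^ m * Module.finrank K (Subalgebra.centralizer K ({ρ z} : Set (Module.End K V))) + 1 ≤
        Module.finrank K V ^ 2 + 2 ^ m ∧
      ∀ v ∈ Q, IsScalar ρ (v⁻¹ * (z ^ 2 ^ (m - 1) * v * (z ^ 2 ^ (m - 1))⁻¹)) → IsScalar ρ v := by
  obtain ⟨h1, h2, -⟩ := count ρ Q hQ hq2 hirr hcomm hqK h2K z hm hzQ hzN
  set y := z ^ 2 ^ (m - 1) with hy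
  have hyQ : y ∈ Subgroup.normalizer (Q : Set G) := Subgroup.pow_mem _ hzQ _
  have hy2 : y ^ 2 = 1 := by
    rw [hy, ← pow_mul, ← pow_succ, Nat.sub_add_cancel (Nat.one_le_iff_ne_zero.mpr hm), hzN]
  have hclass : ∀ v ∈ Q, IsScalar ρ (v⁻¹ * (y * v * y⁻¹)) → IsScalar ρ v := by
    intro v hv hsc
    have hfix := fixed_of_scalar hQ hq2 hyQ hy2 hv hsc
    refine schur hirr (ρ v) fun t ht => ?_
    rw [← hgen] at ht
    induction ht using Subgroup.closure_induction with
    | mem z hz =>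
      obtain ⟨w, hw, rfl⟩ := hz
      exact (commute_of_fixed hcomm hv hfix hw).symm
    | one => rw [map_one, one_mul, mul_one]
    | mul a b _ _ iha ihb => rw [map_mul, mul_assoc, ihb, ← mul_assoc, iha, mul_assoc]
    | inv a _ iha =>
      calc ρ a⁻¹ * ρ v = ρ a⁻¹ * ρ v * (ρ a * ρ a⁻¹) := by rw [← map_mul ρ a, mul_inv_cancel, map_one, mul_one]
        _ = ρ a⁻¹ * (ρ v * ρ a) * ρ a⁻¹ := by simp only [mul_assoc]
        _ = ρ v * ρ a⁻¹ := by
          rw [← iha, ← mul_assoc (ρ a⁻¹), ← map_mul ρ a⁻¹ a, inv_mul_cancel, map_one, one_mul]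
  have hfm : fixMod ρ Q (Subgroup.pow_mem _ hzQ (2 ^ (m - 1))) hcomm ≤ scalars ρ Q := fun v hv =>
    hclass v v.2 (mem_fixMod.mp hv)
  rw [Subgroup.relIndex_eq_one.mpr hfm, mul_one, h1] at h2
  exact ⟨h1, h2, hclass⟩

omit [Finite G] in
theorem commute_of_finrank_one {W : Type*} [AddCommGroup W] [Module K W] (h : Module.finrank K W = 1)
    (A B : Module.End K W) : A * B = B * A := by
  haveI : Module.Finite K W := Module.finite_of_finrank_eq_succ h
  obtain ⟨z, hz⟩ : ∃ z : W, z ≠ 0 := by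
    haveI : Nontrivial W := Module.nontrivial_of_finrank_eq_succ h
    exact exists_ne 0
  refine LinearMap.ext fun t => ?_
  have hspan := (finrank_eq_one_iff_of_nonzero' z hz).mp h
  obtain ⟨a, ha⟩ := hspan (A z)
  obtain ⟨b, hb⟩ := hspan (B z)
  obtain ⟨c, rfl⟩ := hspan t
  simp only [Module.End.mul_apply, map_smul, ← ha, ← hb, smul_smul, mul_comm]

/-- A two-dimensional displacement forces commuting. -/
theorem commute_of_rank [IsAlgClosed K] {q r : ℕ} [Fact q.Prime] [Fact r.Prime] (hr2 : r ≠ 2) (hrq : r ≠ q)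
    (hrK : (r : K) ≠ 0) (h2K : (2 : K) ≠ 0) (ρ : G →* Module.End K V) (z : G) {m : ℕ} (hqm : q + 1 = 2 ^ m)
    (hzN : z ^ 2 ^ m = 1) (hrank : Module.finrank K (LinearMap.range (ρ z - 1)) ≤ 2) :
    ∀ (P : Subgroup G), IsPGroup r P → z ∈ Subgroup.normalizer (P : Set G) →
      ∀ u ∈ P, ρ (z ^ 2 ^ (m - 1) * u * (z ^ 2 ^ (m - 1))⁻¹) = ρ u := by
  intro P
  induction hP0 : Nat.card P using Nat.strong_induction_on generalizing P with
  | _ M ih =>
  intro hP hzP u0 hu0
  classical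
  have hq : q.Prime := Fact.out
  have hr : r.Prime := Fact.out
  have hm : m ≠ 0 := by
    intro h
    rw [h, pow_zero] at hqm
    have := hq.two_le
    omega
  have hm2 : 2 ≤ m := by
    by_contra hlt
    have h1 : m = 1 := by omega
    rw [h1, pow_one] at hqm
    have := hq.two_le
    omega
  set y := z ^ 2 ^ (m - 1) with hy
  have hy2 : y ^ 2 = 1 := by
    rw [hy, ← pow_mul, ← pow_succ, Nat.sub_add_cancel (Nat.one_le_iff_ne_zero.mpr hm), hzN]
  have hyy : y * y = 1 := by rw [← sq, hy2]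
  have hyi : y⁻¹ = y := by rw [inv_eq_iff_mul_eq_one, hyy]
  have hzy : Commute z y := Commute.self_pow z _
  have hyP : y ∈ Subgroup.normalizer (P : Set G) := Subgroup.pow_mem _ hzP _
  have hyc : ∀ v ∈ P, y * v * y⁻¹ ∈ P := fun v hv => (Subgroup.mem_normalizer_iff.mp hyP v).mp hv
  have hsmall : ∀ P' : Subgroup G, P' < P → z ∈ Subgroup.normalizer (P' : Set G) →
      ∀ u ∈ P', ρ (y * u * y⁻¹) = ρ u := by
    intro P' hlt hzP'
    have hcard : Nat.card P' < M := by
      rw [← hP0]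
      refine lt_of_le_of_ne (Nat.le_of_dvd Nat.card_pos (Subgroup.card_dvd_of_le hlt.le)) fun he => hlt.ne ?_
      exact Subgroup.eq_of_le_of_card_ge hlt.le he.ge
    exact ih _ hcard P' rfl (hP.to_le hlt.le) hzP'
  let cy : G → G := fun v => v⁻¹ * (y * v * y⁻¹)
  have hcyP : ∀ v ∈ P, cy v ∈ P := fun v hv => P.mul_mem (P.inv_mem hv) (hyc v hv)
  by_cases hgen : Subgroup.closure (cy '' (P : Set G)) = P
  swap
  · -- the commutators lie in a smaller invariant subgroup
    have hle : Subgroup.closure (cy '' (P : Set G)) ≤ P := by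
      rw [Subgroup.closure_le]
      rintro _ ⟨v, hv, rfl⟩
      exact hcyP v hv
    have hzn : z ∈ Subgroup.normalizer ((Subgroup.closure (cy '' (P : Set G)) : Subgroup G) : Set G) := by
      refine mem_normalizer_of_map ?_
      rw [MonoidHom.map_closure]
      congr 1
      ext g
      have hg : ∀ v, z * cy v * z⁻¹ = cy (z * v * z⁻¹) := fun v => by
        show z * (v⁻¹ * (y * v * y⁻¹)) * z⁻¹ = (z * v * z⁻¹)⁻¹ * (y * (z * v * z⁻¹) * y⁻¹)
        have h1 : y * z = z * y := hzy.symm.eq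
        have h2 : z⁻¹ * y⁻¹ = y⁻¹ * z⁻¹ := by rw [← mul_inv_rev, ← mul_inv_rev, h1]
        calc z * (v⁻¹ * (y * v * y⁻¹)) * z⁻¹ = z * v⁻¹ * z⁻¹ * ((z * y) * v * (y⁻¹ * z⁻¹)) := by group
          _ = z * v⁻¹ * z⁻¹ * ((y * z) * v * (z⁻¹ * y⁻¹)) := by rw [h1, h2]
          _ = _ := by group
      constructor
      · rintro ⟨_, ⟨v, hv, rfl⟩, rfl⟩
        exact ⟨z * v * z⁻¹, (Subgroup.mem_normalizer_iff.mp hzP v).mp hv, (hg v).symm⟩
      · rintro ⟨v, hv, rfl⟩
        refine ⟨cy (z⁻¹ * v * z), ⟨z⁻¹ * v * z, ?_, rfl⟩, ?_⟩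
        · refine (Subgroup.mem_normalizer_iff.mp hzP _).mpr ?_
          rwa [show z * (z⁻¹ * v * z) * z⁻¹ = v by group]
        · show z * cy (z⁻¹ * v * z) * z⁻¹ = cy v
          rw [hg]; congr 1; group
    have hfix := hsmall _ (lt_of_le_of_ne hle hgen) hzn (cy u0) (Subgroup.subset_closure ⟨u0, hu0, rfl⟩)
    have hinv : y * cy u0 * y⁻¹ = (cy u0)⁻¹ := by
      show y * (u0⁻¹ * (y * u0 * y⁻¹)) * y⁻¹ = (u0⁻¹ * (y * u0 * y⁻¹))⁻¹
      rw [mul_inv_rev, inv_inv, mul_inv_rev, mul_inv_rev, inv_inv, hyi]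
      calc y * (u0⁻¹ * (y * u0 * y)) * y = y * u0⁻¹ * y * u0 * (y * y) := by group
        _ = _ := by rw [hyy]; group
    rw [hinv] at hfix
    have h2 : ρ (cy u0) ^ 2 = 1 := by
      rw [sq]
      nth_rw 1 [← hfix]
      rw [← map_mul, inv_mul_cancel, map_one]
    obtain ⟨e, he⟩ := hP ⟨cy u0, hcyP u0 hu0⟩
    have hre : ρ (cy u0) ^ r ^ e = 1 := by
      rw [← map_pow, show cy u0 ^ r ^ e = 1 from congrArg Subtype.val he, map_one]
    have hone : ρ (cy u0) = 1 := by
      have h := pow_gcd_eq_one.mpr ⟨h2, hre⟩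
      rwa [show Nat.gcd 2 (r ^ e) = 1 from
        Nat.Coprime.pow_right e ((Nat.coprime_primes Nat.prime_two hr).mpr hr2.symm), pow_one] at h
    rw [show y * u0 * y⁻¹ = u0 * cy u0 from (mul_inv_cancel_left _ _).symm, map_mul, hone, mul_one]
  -- commutators are central
  have hcentral : ∀ v ∈ P, ∀ w ∈ P, ∀ t ∈ P,
      ρ t * ρ (v * w * v⁻¹ * w⁻¹) = ρ (v * w * v⁻¹ * w⁻¹) * ρ t := by
    rcases eq_or_ne P ⊥ with hb | hb
    · intro v hv w hw t ht
      rw [hb, Subgroup.mem_bot] at hv hw ht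
      subst hv hw ht
      simp
    haveI : Nontrivial P := P.nontrivial_iff_ne_bot.mpr hb
    haveI : Group.IsNilpotent P := hP.isNilpotent
    have hlt : ⁅P, P⁆ < P := by
      have h1 : (commutator P).map P.subtype = ⁅P, P⁆ := by
        rw [commutator_def, Subgroup.map_commutator, ← MonoidHom.range_eq_map, Subgroup.range_subtype]
      rw [← h1]
      have h2 := Subgroup.map_lt_map_iff_of_injective (P.subtype_injective) |>.mpr
        (Group.IsSolvable.commutator_lt_top_of_nontrivial P)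
      rwa [← MonoidHom.range_eq_map, Subgroup.range_subtype] at h2
    have hzc : z ∈ Subgroup.normalizer ((⁅P, P⁆ : Subgroup G) : Set G) := by
      refine mem_normalizer_of_map ?_
      rw [Subgroup.map_commutator, map_of_mem_normalizer hzP]
    have hfixcomm := hsmall _ hlt hzc
    intro v hv w hw t ht
    have hc0 : v * w * v⁻¹ * w⁻¹ ∈ ⁅P, P⁆ := by
      rw [← commutatorElement_def]; exact Subgroup.commutator_mem_commutator hv hw
    generalize v * w * v⁻¹ * w⁻¹ = c at hc0 ⊢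
    rw [← hgen] at ht
    induction ht using Subgroup.closure_induction with
    | mem z hz =>
      obtain ⟨t, ht, rfl⟩ := hz
      have h1 := hfixcomm (t * c * t⁻¹) ((Subgroup.mem_normalizer_iff.mp
        (le_normalizer_commutator P ht) c).mp hc0)
      have h2 : ρ (cy t) * ρ c * ρ (cy t)⁻¹ = ρ c := by
        have h3 : ρ (y * t * y⁻¹ * c * (y * t * y⁻¹)⁻¹) = ρ (t * c * t⁻¹) := by
          rw [← h1, show y * (t * c * t⁻¹) * y⁻¹ = y * t * y⁻¹ * (y * c * y⁻¹) * (y * t * y⁻¹)⁻¹ by group,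
            map_mul ρ _ ((y * t * y⁻¹)⁻¹), map_mul ρ _ ((y * t * y⁻¹)⁻¹), map_mul ρ (y * t * y⁻¹) c,
            map_mul ρ (y * t * y⁻¹) (y * c * y⁻¹), hfixcomm c hc0]
        calc ρ (cy t) * ρ c * ρ (cy t)⁻¹ = ρ t⁻¹ * ρ (y * t * y⁻¹ * c * (y * t * y⁻¹)⁻¹) * ρ t := by
              simp only [cy, ← map_mul]; congr 1; group
          _ = ρ t⁻¹ * ρ (t * c * t⁻¹) * ρ t := by rw [h3]
          _ = ρ c := by simp only [← map_mul]; congr 1; group
      calc ρ (cy t) * ρ c = ρ (cy t) * ρ c * ρ (cy t)⁻¹ * ρ (cy t) := by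
            rw [mul_assoc (ρ (cy t) * ρ c), ← map_mul _ _ (cy t), inv_mul_cancel, map_one, mul_one]
        _ = ρ c * ρ (cy t) := by rw [h2]
    | one => rw [map_one, one_mul, mul_one]
    | mul a b _ _ iha ihb => rw [map_mul, mul_assoc, ihb, ← mul_assoc, iha, mul_assoc]
    | inv a _ iha =>
      calc ρ a⁻¹ * ρ c = ρ a⁻¹ * ρ c * (ρ a * ρ a⁻¹) := by rw [← map_mul ρ a, mul_inv_cancel, map_one, mul_one]
        _ = ρ a⁻¹ * (ρ c * ρ a) * ρ a⁻¹ := by simp only [mul_assoc]
        _ = ρ c * ρ a⁻¹ := by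
          rw [← iha, ← mul_assoc (ρ a⁻¹), ← map_mul ρ a⁻¹ a, inv_mul_cancel, map_one, one_mul]
  -- the fixed space
  let S : Submodule K V :=
    { carrier := {w | ∀ u ∈ P, ρ (y * u * y⁻¹) w = ρ u w}
      zero_mem' := fun u _ => by rw [map_zero, map_zero]
      add_mem' := fun {a b} ha hb u hu => by rw [map_add, map_add, ha u hu, hb u hu]
      smul_mem' := fun c a ha u hu => by rw [map_smul, map_smul, ha u hu] }
  suffices hS : S = ⊤ by exact LinearMap.ext fun w => (hS.ge Submodule.mem_top : w ∈ S) u0 hu0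
  refine eq_top_of_component (q := r) (ρ := ρ) hP hrK h2K hzP hzN S ?_ ?_ ?_
  · intro t ht w hw u hu
    have h1 := hw t ht
    calc ρ (y * u * y⁻¹) (ρ t w) = ρ (y * (u * (y * t * y⁻¹)) * y⁻¹) w := by
          rw [← rho_mul]; congr 2
          rw [hyi]
          calc y * u * y * t = y * u * (y * t * (y * y)) := by rw [hyy, mul_one]; group
            _ = _ := by group
      _ = ρ (u * (y * t * y⁻¹)) w := hw _ (P.mul_mem hu (hyc t ht))
      _ = ρ u (ρ t w) := by rw [rho_mul, h1]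
  · intro w hw u hu
    have hu' : z⁻¹ * u * z ∈ P := by
      simpa using (Subgroup.mem_normalizer_iff.mp (Subgroup.inv_mem _ hzP) u).mp hu
    have h1 := congrArg (ρ z) (hw _ hu')
    rw [← rho_mul, ← rho_mul] at h1
    rw [← rho_mul, ← rho_mul]
    have e1 : z * (y * (z⁻¹ * u * z) * y⁻¹) = y * u * y⁻¹ * z := by
      calc z * (y * (z⁻¹ * u * z) * y⁻¹) = (z * y * z⁻¹) * u * (z * y⁻¹) := by group
        _ = y * u * (y⁻¹ * z) := by rw [hzy.eq, mul_inv_cancel_right, (hzy.inv_right).eq]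
        _ = _ := (mul_assoc _ _ _).symm
    rw [e1, show z * (z⁻¹ * u * z) = u * z by group] at h1
    exact h1
  intro a W han hW hWfix hinj w hw u hu
  haveI : Nontrivial W := Submodule.nontrivial_iff_ne_bot.mpr hW.1
  have hdpos : 0 < Module.finrank K W := Module.finrank_pos
  set H := stab ρ W with hH
  have hPH : P ≤ H := inv_iff_le_stab.mp hW.2.1
  have hInv : Inv ρ H W := fun g hg v hv => apply_mem_of_mem_stab hg hv
  set ρW := restr ρ H W hInv with hρW
  have hirrW : Irred ρW (P.subgroupOf H) := by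
    intro U hU
    rcases hW.2.2 (U.map W.subtype) (Submodule.map_subtype_le W U) (by
      rintro g hg _ ⟨w, hw, rfl⟩
      exact ⟨_, hU ⟨g, hPH hg⟩ hg w hw, rfl⟩) with h | h
    · left
      refine Submodule.map_injective_of_injective W.injective_subtype ?_
      rw [h, Submodule.map_bot]
    · right
      refine Submodule.map_injective_of_injective W.injective_subtype ?_
      rw [h, Submodule.map_subtype_top]
  have hPW : IsPGroup r (P.subgroupOf H) := hP.of_equiv (Subgroup.subgroupOfEquivOfLe hPH).symm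
  obtain ⟨j, hj⟩ := finrank_eq_prime_pow ρW (P.subgroupOf H) hPW hirrW
  have hone : Module.finrank K W = 1 ∨ 3 ≤ Module.finrank K W := by
    rcases Nat.eq_zero_or_pos j with rfl | hj0
    · left; rw [hj, pow_zero]
    · right
      have := Nat.le_self_pow hj0.ne' r
      have := hr.two_le
      omega
  -- the displacement of the translates
  have hbound : (2 ^ a - 1) * Module.finrank K W ≤ 2 := by
    obtain ⟨l, hl⟩ : ∃ l, 2 ^ a = l + 1 := ⟨2 ^ a - 1, by have := Nat.two_pow_pos a; omega⟩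
    rw [hl, Nat.add_sub_cancel]
    refine le_trans ?_ hrank
    rw [hl] at hinj
    let Ψ : (Fin l → W) →ₗ[K] LinearMap.range (ρ z - 1) :=
      ((ρ z - 1).rangeRestrict).comp (translateSum ρ z l W)
    have hΨ : Function.Injective Ψ := by
      rw [← LinearMap.ker_eq_bot, eq_bot_iff]
      intro c hc
      rw [LinearMap.mem_ker] at hc
      have h0 : ρ z (translateSum ρ z l W c) = translateSum ρ z l W c := by
        have := congrArg Subtype.val hc
        exact sub_eq_zero.mp this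
      have h1 : translateSum ρ z (l + 1) W (Fin.cons 0 c) = translateSum ρ z (l + 1) W (Fin.snoc c 0) := by
        rw [translateSum_apply, translateSum_apply, Fin.sum_univ_succ, Fin.sum_univ_castSucc]
        simp only [Fin.cons_zero, Fin.cons_succ, Fin.snoc_castSucc, Fin.snoc_last, Submodule.coe_zero, map_zero,
          zero_add, add_zero, Fin.val_succ, Fin.coe_castSucc]
        rw [← translateSum_apply, ← h0, translateSum_apply, map_sum]
        simp only [← rho_mul, ← pow_succ']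
      have h2 := congrFun (hinj h1)
      rw [Submodule.mem_bot]
      funext i
      obtain ⟨i, hi⟩ := i
      show c ⟨i, hi⟩ = 0
      induction i with
      | zero =>
        have h3 := h2 (Fin.castSucc ⟨0, hi⟩)
        rw [Fin.snoc_castSucc, show Fin.castSucc (⟨0, hi⟩ : Fin l) = 0 from rfl, Fin.cons_zero] at h3
        exact h3.symm
      | succ i ihi =>
        have h3 := h2 (Fin.castSucc ⟨i + 1, hi⟩)
        rw [Fin.snoc_castSucc, show Fin.castSucc (⟨i + 1, hi⟩ : Fin l) = Fin.succ ⟨i, by omega⟩ from rfl,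
          Fin.cons_succ, ihi] at h3
        exact h3.symm
    have := LinearMap.finrank_le_finrank_of_injective hΨ
    rwa [Module.finrank_pi_fintype, Finset.sum_const, Finset.card_univ, Fintype.card_fin, smul_eq_mul] at this
  have ha : a < m := by
    by_contra hge
    have : a = m := by omega
    subst this
    have h4 : 4 ≤ 2 ^ a := (pow_le_pow_right₀ (by norm_num) hm2 : 2 ^ 2 ≤ 2 ^ a)
    have : 3 ≤ (2 ^ a - 1) * Module.finrank K W := le_trans (by omega) (Nat.le_mul_of_pos_right _ hdpos)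
    omega
  have hzH : z ^ 2 ^ a ∈ H := hWfix
  have hyH : y ∈ H := by
    have : y = (z ^ 2 ^ a) ^ 2 ^ (m - 1 - a) := by rw [hy, ← pow_mul, ← pow_add]; congr 2; omega
    rw [this]; exact H.pow_mem hzH _
  by_cases h1 : Module.finrank K W = 1
  · have h2 := commute_of_finrank_one h1 (ρW ⟨y, hyH⟩) (ρW ⟨u, hPH hu⟩)
    have h3 := congrArg (fun A : Module.End K W => (A * ρW (⟨y, hyH⟩ : H)⁻¹) ⟨w, hw⟩) h2
    simp only [← map_mul] at h3
    rw [show (⟨u, hPH hu⟩ : H) * ⟨y, hyH⟩ * (⟨y, hyH⟩ : H)⁻¹ = ⟨u, hPH hu⟩ by group] at h3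
    exact congrArg Subtype.val h3
  have hd3 : 3 ≤ Module.finrank K W := hone.resolve_left h1
  have ha0 : a = 0 := by
    by_contra h
    have : 2 ≤ 2 ^ a := Nat.le_self_pow h 2
    have : 3 ≤ (2 ^ a - 1) * Module.finrank K W := le_trans hd3 (Nat.le_mul_of_pos_left _ (by omega))
    omega
  subst ha0
  rw [pow_zero, pow_one] at hzH
  exfalso
  have hzP' : (⟨z, hzH⟩ : H) ∈ Subgroup.normalizer ((P.subgroupOf H) : Set H) := by
    rw [Subgroup.mem_normalizer_iff]
    exact fun h => Subgroup.mem_normalizer_iff.mp hzP (h : G)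
  have hgenW : Subgroup.closure ((fun v => v⁻¹ * ((⟨z, hzH⟩ : H) ^ 2 ^ (m - 1) * v *
      ((⟨z, hzH⟩ : H) ^ 2 ^ (m - 1))⁻¹)) '' ((P.subgroupOf H) : Set H)) = P.subgroupOf H := by
    refine Subgroup.map_injective H.subtype_injective ?_
    rw [MonoidHom.map_closure, Subgroup.map_subgroupOf_eq_of_le hPH]
    refine Eq.trans ?_ hgen
    congr 1
    ext g
    constructor
    · rintro ⟨_, ⟨v, hv, rfl⟩, rfl⟩
      exact ⟨(v : G), hv, rfl⟩
    · rintro ⟨v, hv, rfl⟩
      exact ⟨_, ⟨⟨v, hPH hv⟩, hv, rfl⟩, rfl⟩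
  have hcommW : ∀ v ∈ P.subgroupOf H, ∀ w ∈ P.subgroupOf H, IsScalar ρW (v * w * v⁻¹ * w⁻¹) := by
    intro v hv w hw
    refine schur hirrW _ fun t ht => LinearMap.ext fun e => Subtype.ext ?_
    exact LinearMap.congr_fun (hcentral _ hv _ hw _ ht) (e : V)
  obtain ⟨-, hC, -⟩ := count_gen ρW (P.subgroupOf H) hPW hr2 hirrW hcommW hrK h2K ⟨z, hzH⟩ hm hzP'
    (Subtype.ext hzN) hgenW
  obtain ⟨hCD, hCf⟩ := finrank_centralizer_ge ρW ⟨z, hzH⟩ (Subtype.ext hzN : (⟨z, hzH⟩ : H) ^ 2 ^ m = 1)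
    (by rw [Nat.cast_pow]; exact pow_ne_zero m (by exact_mod_cast h2K))
  have hrW : Module.finrank K (LinearMap.range (ρW ⟨z, hzH⟩ - 1)) ≤ 2 := by
    refine le_trans ?_ hrank
    rw [← Submodule.finrank_map_subtype_eq W (LinearMap.range (ρW ⟨z, hzH⟩ - 1))]
    refine Submodule.finrank_mono ?_
    rintro _ ⟨_, ⟨v, rfl⟩, rfl⟩
    exact ⟨(v : V), rfl⟩
  refine not_small hr hr2 hrq hq hqm (j := j) (by omega) (hj ▸ hCD) (le_trans ?_ hCf) (hj ▸ hC)
  rw [← hj]
  exact Nat.pow_le_pow_left (Nat.sub_le_sub_left hrW _) 2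

end Cfsg.Agent.Lib.TwoPowerFPF
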