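import Cfsg.Agent.Lib.TwoPowerFPF.Basic
import Cfsg.Agent.Lib.FitHeight.HallHigman

set_option autoImplicit false
set_option linter.unusedSectionVars false
set_option linter.style.haveILetI false

/-! The centraliser of an element of two-power order on an irreducible module of a group of class two. -/

namespace Cfsg.Agent.Lib.TwoPowerFPF

open Cfsg.Agent.Lib.HallHigman

universe u v w

section orbit

variable {k : Type*} [Field k] {E : Type*} [Ring E] [Algebra k E] [FiniteDimensional k E]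

/-- The centraliser is spanned by one average for each orbit. -/
theorem mul_finrank_centralizer_le {p : ℕ} (hp : 0 < p) (hp0 : (p : k) ≠ 0) {F G : E} (hFG : F * G = 1)
    (hF : F ^ p = 1) {X : Type*} [Fintype X] [DecidableEq X] (σ : Equiv.Perm X) (Fx : Finset X)
    (hσp : σ ^ p = 1) (hstab : ∀ x, σ x ∈ Fx ↔ x ∈ Fx)
    (hfree : ∀ (i : ℕ) (x : X), 0 < i → i < p → (σ ^ i) x = x → x ∈ Fx) (T : X → E)
    (hT : ∀ x, ∃ c : k, F * T x * G = c • T (σ x)) (hspan : Submodule.span k (Set.range T) = ⊤) :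
    p * Module.finrank k (Subalgebra.centralizer k ({F} : Set E)) + Fx.card ≤ Fintype.card X + p * Fx.card ∧
      ((∃ x ∈ Fx, σ x ≠ x) →
        p * Module.finrank k (Subalgebra.centralizer k ({F} : Set E)) + p + Fx.card ≤
          Fintype.card X + p * Fx.card) := by
  classical
  have hFGpow : ∀ i, F ^ i * G ^ i = 1 := fun i => by
    induction i with
    | zero => simp
    | succ i ih => rw [pow_succ, pow_succ', mul_assoc (F ^ i), ← mul_assoc F, hFG, one_mul, ih]
  have hGp : G ^ p = 1 := by have := hFGpow p; rwa [hF, one_mul] at this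
  let P : E →ₗ[k] E :=
    (p : k)⁻¹ • ∑ i ∈ Finset.range p, LinearMap.mulLeftRight k (F ^ i, G ^ i)
  have hP : ∀ M, P M = (p : k)⁻¹ • ∑ i ∈ Finset.range p, F ^ i * M * G ^ i := fun M => by
    simp [P, LinearMap.mulLeftRight_apply]
  have hPconj : ∀ M, P (F * M * G) = P M := by
    intro M
    rw [hP, hP]
    congr 1
    have := Finset.sum_range_succ' (fun i => F ^ i * M * G ^ i) p
    rw [Finset.sum_range_succ, hF, hGp] at this
    simp only [pow_zero] at this
    rw [add_right_cancel this]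
    refine Finset.sum_congr rfl fun i _ => ?_
    rw [pow_succ, pow_succ']; simp only [mul_assoc]
  have horbit : ∀ (i : ℕ) (x : X), ∃ c : k, P (T x) = c • P (T ((σ ^ i) x)) := by
    intro i
    induction i with
    | zero => exact fun x => ⟨1, by simp⟩
    | succ i ih =>
      intro x
      obtain ⟨c, hc⟩ := hT x
      obtain ⟨d, hd⟩ := ih (σ x)
      refine ⟨c * d, ?_⟩
      rw [← hPconj (T x), hc, map_smul, hd, smul_smul, pow_succ, Equiv.Perm.mul_apply]
  let ι := Fintype.equivFin X
  let R : Finset X := Finset.univ.filter fun x => ∀ i : ℕ, ι x ≤ ι ((σ ^ i) x)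
  have hmod : ∀ (i : ℕ) (x : X), (σ ^ i) x = (σ ^ (i % p)) x := fun i x => by
    rw [← pow_eq_pow_mod i hσp]
  have hrep : ∀ x, ∃ i : ℕ, (σ ^ i) x ∈ R := by
    intro x
    obtain ⟨i, -, hi⟩ := (Finset.range p).exists_min_image (fun i => ι ((σ ^ i) x))
      ⟨0, Finset.mem_range.mpr hp⟩
    refine ⟨i, Finset.mem_filter.mpr ⟨Finset.mem_univ _, fun j => ?_⟩⟩
    rw [← Equiv.Perm.mul_apply, ← pow_add, hmod (j + i)]
    exact hi _ (Finset.mem_range.mpr (Nat.mod_lt _ hp))
  have hcent : Subalgebra.toSubmodule (Subalgebra.centralizer k ({F} : Set E)) ≤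
      Submodule.span k ((fun x => P (T x)) '' (R : Set X)) := by
    intro M hM
    have hFM : F * M = M * F := Subalgebra.mem_centralizer_iff k |>.mp hM F rfl
    have hPM : P M = M := by
      have h1 : ∀ i ∈ Finset.range p, F ^ i * M * G ^ i = M := fun i _ => by
        rw [(Commute.pow_left (hFM : Commute F M) i).eq, mul_assoc, hFGpow, mul_one]
      rw [hP, Finset.sum_congr rfl h1, Finset.sum_const, Finset.card_range, ← Nat.cast_smul_eq_nsmul k,
        smul_smul, inv_mul_cancel₀ hp0, one_smul]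
    rw [← hPM]
    have hle : Submodule.map P ⊤ ≤ Submodule.span k ((fun x => P (T x)) '' (R : Set X)) := by
      rw [← hspan, Submodule.map_span, Submodule.span_le]
      rintro _ ⟨_, ⟨x, rfl⟩, rfl⟩
      obtain ⟨i, hi⟩ := hrep x
      obtain ⟨c, hc⟩ := horbit i x
      rw [hc]
      exact Submodule.smul_mem _ _ (Submodule.subset_span ⟨_, hi, rfl⟩)
    exact hle (Submodule.mem_map_of_mem Submodule.mem_top)
  have hdim : Module.finrank k (Subalgebra.centralizer k ({F} : Set E)) ≤ R.card := by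
    refine (Submodule.finrank_mono hcent).trans ?_
    rw [← Finset.coe_image]
    exact (finrank_span_le_card _).trans (by simpa using Finset.card_image_le)
  have hstab' : ∀ (i : ℕ) (x : X), (σ ^ i) x ∈ Fx ↔ x ∈ Fx := by
    intro i
    induction i with
    | zero => intro x; rfl
    | succ i ih => intro x; rw [pow_succ, Equiv.Perm.mul_apply, ih, hstab]
  have hcard : p * (R \ Fx).card + Fx.card ≤ Fintype.card X := by
    have h0 : p * (R \ Fx).card ≤ (Finset.univ \ Fx).card := by
      rw [Nat.mul_comm, ← Finset.card_range p, ← Finset.card_product]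
      refine Finset.card_le_card_of_injOn (fun a => (σ ^ a.2) a.1) ?_ ?_
      · intro a ha
        simp only [Finset.coe_product, Set.mem_prod, Finset.coe_sdiff, Set.mem_diff, Finset.mem_coe] at ha
        simp only [Finset.coe_sdiff, Finset.coe_univ, Set.mem_diff, Set.mem_univ, Finset.mem_coe, true_and]
        exact fun h => ha.1.2 ((hstab' _ _).mp h)
      · rintro ⟨x, i⟩ ha ⟨y, j⟩ hb h
        simp only [Finset.coe_product, Set.mem_prod, Finset.mem_coe, Finset.mem_sdiff, Finset.mem_range,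
          R, Finset.mem_filter, Finset.mem_univ, true_and] at ha hb
        dsimp only at h
        have hxy : ι x ≤ ι y := by
          have h1 := ha.1.1 (i + (p - j))
          rwa [pow_add, (Commute.pow_pow_self σ i (p - j)).eq, Equiv.Perm.mul_apply, h,
            ← Equiv.Perm.mul_apply, ← pow_add, Nat.sub_add_cancel hb.2.le, hσp] at h1
        have hyx : ι y ≤ ι x := by
          have h1 := hb.1.1 (j + (p - i))
          rwa [pow_add, (Commute.pow_pow_self σ j (p - i)).eq, Equiv.Perm.mul_apply, ← h,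
            ← Equiv.Perm.mul_apply, ← pow_add, Nat.sub_add_cancel ha.2.le, hσp] at h1
        have hxy' : x = y := ι.injective (le_antisymm hxy hyx)
        subst hxy'
        rcases lt_trichotomy i j with hij | hij | hij
        · exfalso
          refine ha.1.2 (hfree (j - i) x (by omega) (by omega) ((σ ^ i).injective ?_))
          rw [← Equiv.Perm.mul_apply, ← pow_add, Nat.add_sub_cancel' hij.le]
          exact h.symm
        · rw [hij]
        · exfalso
          refine ha.1.2 (hfree (i - j) x (by omega) (by omega) ((σ ^ j).injective ?_))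
          rw [← Equiv.Perm.mul_apply, ← pow_add, Nat.add_sub_cancel' hij.le]
          exact h
    rw [Finset.card_sdiff_of_subset (Finset.subset_univ _), Finset.card_univ] at h0
    have := Finset.card_le_univ Fx
    omega
  have hR : R.card ≤ (R \ Fx).card + (R ∩ Fx).card := by
    rw [Finset.card_sdiff_add_card_inter]
  have hRF : (R ∩ Fx).card ≤ Fx.card := Finset.card_le_card Finset.inter_subset_right
  have hmul := Nat.mul_le_mul_left p (hdim.trans hR)
  rw [mul_add] at hmul
  refine ⟨by have := Nat.mul_le_mul_left p hRF; omega, ?_⟩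
  rintro ⟨x, hx, hxne⟩
  have hlt : (R ∩ Fx).card < Fx.card := by
    refine Finset.card_lt_card (Finset.ssubset_iff_subset_ne.mpr ⟨Finset.inter_subset_right, fun heq => ?_⟩)
    have h1 := (Finset.mem_inter.mp (heq.ge hx)).1
    have h2 := (Finset.mem_inter.mp (heq.ge ((hstab x).mpr hx))).1
    have h3 := (Finset.mem_filter.mp h1).2 1
    have h4 := (Finset.mem_filter.mp h2).2 (p - 1)
    rw [pow_one] at h3
    rw [← Equiv.Perm.mul_apply, ← pow_succ, Nat.sub_add_cancel hp, hσp, Equiv.Perm.one_apply] at h4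
    exact hxne (ι.injective (le_antisymm h3 h4)).symm
  have := Nat.mul_le_mul_left p hlt
  rw [Nat.succ_eq_add_one, mul_add, mul_one] at this
  omega

end orbit

variable {K : Type w} {G : Type u} {V : Type v} [Field K] [Group G] [Finite G] [AddCommGroup V] [Module K V]
  [FiniteDimensional K V]

/-- The centraliser of an element of finite order is large. -/
theorem finrank_centralizer_ge [IsAlgClosed K] (ρ : G →* Module.End K V) (z : G) {N : ℕ} (hzN : z ^ N = 1)
    (hNK : (N : K) ≠ 0) :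
    Module.finrank K V ≤ Module.finrank K (Subalgebra.centralizer K ({ρ z} : Set (Module.End K V))) ∧
      (Module.finrank K V - Module.finrank K (LinearMap.range (ρ z - 1))) ^ 2 ≤
        Module.finrank K (Subalgebra.centralizer K ({ρ z} : Set (Module.End K V))) := by
  classical
  have hN : 0 < N := Nat.pos_of_ne_zero fun h => hNK (by simp [h])
  let E : Set V := {v | ∃ μ : K, ρ z v = μ • v}
  have hspan : Submodule.span K E = ⊤ := by
    set S := Submodule.span K E
    have hSz : ∀ v ∈ S, ρ z v ∈ S := by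
      intro v hv
      induction hv using Submodule.span_induction with
      | mem v hv =>
        obtain ⟨μ, hμ⟩ := hv
        rw [hμ]
        exact S.smul_mem μ (Submodule.subset_span ⟨μ, hμ⟩)
      | zero => simp
      | add a b _ _ iha ihb => rw [map_add]; exact S.add_mem iha ihb
      | smul c a _ iha => rw [map_smul]; exact S.smul_mem c iha
    have hbot : Inv ρ (⊥ : Subgroup G) S := fun m hm v hv => by
      rw [Subgroup.mem_bot.mp hm, map_one]; exact hv
    have hinv : Inv ρ (Subgroup.zpowers z) S := fun m hm =>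
      inv_sup_zpowers hN hzN hbot hSz m (Subgroup.mem_sup_right hm)
    obtain ⟨C, hC, -, hdisj, hsup⟩ := exists_compl_sub (ρ := ρ) (Subgroup.zpowers z) (by
      rw [Nat.card_zpowers]
      obtain ⟨t, ht⟩ := orderOf_dvd_of_pow_eq_one hzN
      exact fun h => hNK (by rw [ht, Nat.cast_mul, h, zero_mul])) hinv
      (fun _ _ _ _ => Submodule.mem_top : Inv ρ (Subgroup.zpowers z) ⊤) le_top
    by_contra hne
    have hCne : C ≠ ⊥ := fun h => hne (by rw [h, bot_sup_eq] at hsup; exact hsup)
    haveI : Nontrivial C := Submodule.nontrivial_iff_ne_bot.mpr hCne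
    obtain ⟨μ, hμ⟩ := Module.End.exists_eigenvalue ((ρ z).restrict (hC z (Subgroup.mem_zpowers z)))
    obtain ⟨v, hv⟩ := hμ.exists_hasEigenvector
    have h1 : (v : V) ∈ S := Submodule.subset_span ⟨μ, congrArg Subtype.val hv.apply_eq_smul⟩
    exact hv.2 (Subtype.ext (Submodule.disjoint_def.mp hdisj _ v.2 h1))
  obtain ⟨B, hBE, hBspan, hBli⟩ := exists_linearIndependent K E
  haveI : Fintype B := @Fintype.ofFinite _ hBli.finite
  let b : Module.Basis B K V := Module.Basis.mk hBli (by rw [Subtype.range_coe, hBspan, hspan])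
  have hbval : ∀ i : B, b i = (i : V) := fun i => by rw [Module.Basis.mk_apply]
  have hμ : ∀ i : B, ∃ μ : K, ρ z (b i) = μ • b i := fun i => by rw [hbval]; exact hBE i.2
  choose μ hμ using hμ
  let T : ({a : B × B // μ a.1 = μ a.2} → K) →ₗ[K] Subalgebra.centralizer K ({ρ z} : Set (Module.End K V)) :=
    { toFun := fun g => ⟨b.constr K fun j => ∑ i, if h : μ i = μ j then g ⟨(i, j), h⟩ • b i else 0, by
        rw [Subalgebra.mem_centralizer_iff]
        intro A hA
        rw [Set.mem_singleton_iff.mp hA]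
        refine b.ext fun j => ?_
        rw [Module.End.mul_apply, Module.End.mul_apply, hμ, map_smul, Module.Basis.constr_basis, map_sum,
          Finset.smul_sum]
        refine Finset.sum_congr rfl fun i _ => ?_
        split
        · next h => rw [map_smul, hμ, h, smul_comm]
        · rw [map_zero, smul_zero]⟩
      map_add' := fun g g' => by
        refine Subtype.ext (b.ext fun j => ?_)
        simp only [Subalgebra.coe_add, LinearMap.add_apply, Module.Basis.constr_basis, ← Finset.sum_add_distrib]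
        refine Finset.sum_congr rfl fun i _ => ?_
        split <;> simp [add_smul]
      map_smul' := fun c g => by
        refine Subtype.ext (b.ext fun j => ?_)
        simp only [Subalgebra.coe_smul, LinearMap.smul_apply, Module.Basis.constr_basis, Finset.smul_sum,
          RingHom.id_apply]
        refine Finset.sum_congr rfl fun i _ => ?_
        split <;> simp [mul_smul] }
  have hT : Function.Injective T := by
    intro g g' h
    funext a
    obtain ⟨⟨i, j⟩, hij⟩ := a
    have h1 := congrArg (fun A : Subalgebra.centralizer K ({ρ z} : Set (Module.End K V)) =>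
      b.repr ((A : Module.End K V) (b j)) i) h
    simp only [T, LinearMap.coe_mk, AddHom.coe_mk, Module.Basis.constr_basis, map_sum, Finsupp.coe_finsetSum,
      Finset.sum_apply] at h1
    rw [Finset.sum_eq_single i (fun l _ hl => ?_) (by simp), Finset.sum_eq_single i (fun l _ hl => ?_) (by simp),
      dif_pos hij, dif_pos hij] at h1
    · simpa using h1
    all_goals split <;> simp [Finsupp.single_apply, hl]
  have hle := LinearMap.finrank_le_finrank_of_injective hT
  rw [Module.finrank_pi, Fintype.card_subtype] at hle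
  have hD : Module.finrank K V = Fintype.card B := Module.finrank_eq_card_basis b
  refine ⟨?_, ?_⟩
  · refine le_trans ?_ hle
    rw [hD, ← Finset.card_univ]
    exact Finset.card_le_card_of_injOn (fun i => (i, i)) (fun i _ => by simp) (fun i _ j _ h => (Prod.ext_iff.mp h).1)
  · refine le_trans ?_ hle
    let Fs : Finset B := Finset.univ.filter fun i => μ i = 1
    have h1 : (Finset.univ \ Fs).card ≤ Module.finrank K (LinearMap.range (ρ z - 1)) := by
      have hmem : ∀ i : (Finset.univ \ Fs : Finset B), b (i : B) ∈ LinearMap.range (ρ z - 1) := by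
        rintro ⟨i, hi⟩
        have hne : μ i - 1 ≠ 0 := by
          simp only [Fs, Finset.mem_sdiff, Finset.mem_univ, Finset.mem_filter, true_and] at hi
          exact sub_ne_zero.mpr hi
        refine ⟨(μ i - 1)⁻¹ • b i, ?_⟩
        rw [map_smul, LinearMap.sub_apply, Module.End.one_apply, hμ,
          show μ i • b i - b i = (μ i - 1) • b i by rw [sub_smul, one_smul], inv_smul_smul₀ hne]
      have hli : LinearIndependent K fun i : (Finset.univ \ Fs : Finset B) =>
          (⟨b (i : B), hmem i⟩ : LinearMap.range (ρ z - 1)) :=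
        LinearIndependent.of_comp (LinearMap.range (ρ z - 1)).subtype
          (b.linearIndependent.comp _ Subtype.val_injective)
      have h2 := hli.fintype_card_le_finrank
      rwa [Fintype.card_coe] at h2
    rw [Finset.card_sdiff_of_subset (Finset.subset_univ _), Finset.card_univ] at h1
    calc (Module.finrank K V - Module.finrank K (LinearMap.range (ρ z - 1))) ^ 2 ≤ Fs.card ^ 2 :=
          Nat.pow_le_pow_left (by omega) 2
      _ = (Fs ×ˢ Fs).card := by rw [Finset.card_product, sq]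
      _ ≤ _ := Finset.card_le_card fun a ha => by
          simp only [Fs, Finset.mem_product, Finset.mem_filter, Finset.mem_univ, true_and] at ha ⊢
          rw [ha.1, ha.2]

/-- Elements acting as scalars, inside `Q`. -/
def scalars [Nontrivial V] (ρ : G →* Module.End K V) (Q : Subgroup G) : Subgroup Q where
  carrier := {v | IsScalar ρ (v : G)}
  one_mem' := ⟨1, by rw [Subgroup.coe_one, map_one, one_smul]⟩
  mul_mem' := by
    rintro a b ⟨s, hs⟩ ⟨t, ht⟩
    exact ⟨s * t, by rw [Subgroup.coe_mul, map_mul, hs, ht, smul_mul_assoc, one_mul, smul_smul]⟩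
  inv_mem' := by
    rintro a ⟨s, hs⟩
    refine ⟨s⁻¹, ?_⟩
    have h1 : ρ (a : G)⁻¹ * ρ (a : G) = 1 := by rw [← map_mul, inv_mul_cancel, map_one]
    rw [hs, mul_smul_comm, mul_one] at h1
    have hs0 : s ≠ 0 := fun h => one_ne_zero (α := Module.End K V) (by rw [← h1, h, zero_smul])
    rw [InvMemClass.coe_inv, ← h1, inv_smul_smul₀ hs0]

omit [Finite G] [FiniteDimensional K V] in
theorem mem_scalars [Nontrivial V] {ρ : G →* Module.End K V} {Q : Subgroup G} {v : Q} :
    v ∈ scalars ρ Q ↔ IsScalar ρ (v : G) := Iff.rfl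

instance scalars_normal [Nontrivial V] (ρ : G →* Module.End K V) (Q : Subgroup G) : (scalars ρ Q).Normal :=
  ⟨fun v hv g => by
    show IsScalar ρ ((g * v * g⁻¹ : Q) : G)
    rw [Subgroup.coe_mul, Subgroup.coe_mul, InvMemClass.coe_inv]
    exact isScalar_conj hv _⟩

section

variable {q : ℕ} [Fact q.Prime]

omit [Finite G] [FiniteDimensional K V] in
/-- An element moved by an involution only into a scalar is fixed. -/
theorem fixed_of_scalar [Nontrivial V] {ρ : G →* Module.End K V} {Q : Subgroup G} (hQ : IsPGroup q Q)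
    (hq2 : q ≠ 2) {y : G} (hyQ : y ∈ Subgroup.normalizer (Q : Set G)) (hy : y ^ 2 = 1) {v : G} (hv : v ∈ Q)
    (hsc : IsScalar ρ (v⁻¹ * (y * v * y⁻¹))) : ρ (y * v * y⁻¹) = ρ v := by
  set e := v⁻¹ * (y * v * y⁻¹) with he
  have heQ : e ∈ Q := Q.mul_mem (Q.inv_mem hv) ((Subgroup.mem_normalizer_iff.mp hyQ v).mp hv)
  obtain ⟨s, hs⟩ := hsc
  have hye : y * e * y⁻¹ = e⁻¹ := by
    have hyy : y * y = 1 := by rw [← sq, hy]
    have hyi : y⁻¹ = y := by rw [inv_eq_iff_mul_eq_one, hyy]
    rw [he, mul_inv_rev, inv_inv, mul_inv_rev, mul_inv_rev, inv_inv, hyi]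
    calc y * (v⁻¹ * (y * v * y)) * y = y * v⁻¹ * y * v * (y * y) := by group
      _ = _ := by rw [hyy]; group
  have h1 : ρ (y * e * y⁻¹) = s • 1 := by
    rw [map_mul, map_mul, hs, mul_smul_comm, mul_one, smul_mul_assoc, ← map_mul, mul_inv_cancel, map_one]
  rw [hye] at h1
  have h2 : ρ e⁻¹ * ρ e = 1 := by rw [← map_mul, inv_mul_cancel, map_one]
  rw [h1, hs, smul_mul_assoc, one_mul, smul_smul] at h2
  have hinj : ∀ a b : K, a • (1 : Module.End K V) = b • 1 → a = b :=
    fun a b h => smul_left_injective K (one_ne_zero : (1 : Module.End K V) ≠ 0) h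
  have hs2 : s ^ 2 = 1 := by rw [sq]; exact hinj _ _ (by rw [h2, one_smul])
  obtain ⟨t, ht⟩ := hQ ⟨e, heQ⟩
  have hst : s ^ q ^ t = 1 := by
    refine hinj _ _ ?_
    have h3 := congrArg ρ (congrArg Subtype.val ht)
    rw [Subgroup.coe_pow, map_pow, hs, smul_pow, one_pow, Subgroup.coe_one, map_one] at h3
    rw [h3, one_smul]
  have hs1 : s = 1 := by
    have h := pow_gcd_eq_one.mpr ⟨hs2, hst⟩
    rwa [show Nat.gcd 2 (q ^ t) = 1 from
      Nat.Coprime.pow_right t ((Nat.coprime_primes Nat.prime_two Fact.out).mpr hq2.symm), pow_one] at h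
  rw [show y * v * y⁻¹ = v * e by rw [he, mul_inv_cancel_left], map_mul, hs, hs1, one_smul, mul_one]

omit [Finite G] [FiniteDimensional K V] [Fact q.Prime] in
/-- Fixed elements commute with the commutators. -/
theorem commute_of_fixed [Nontrivial V] {ρ : G →* Module.End K V} {Q : Subgroup G} {y : G}
    (hcomm : ∀ v ∈ Q, ∀ w ∈ Q, IsScalar ρ (v * w * v⁻¹ * w⁻¹)) {v : G} (hv : v ∈ Q)
    (hfix : ρ (y * v * y⁻¹) = ρ v) {w : G} (hw : w ∈ Q) :
    ρ v * ρ (w⁻¹ * (y * w * y⁻¹)) = ρ (w⁻¹ * (y * w * y⁻¹)) * ρ v := by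
  obtain ⟨s, hs⟩ := hcomm v hv w hw
  have hs0 : s ≠ 0 := by
    intro h
    have h1 : ρ (v * w * v⁻¹ * w⁻¹) * ρ (v * w * v⁻¹ * w⁻¹)⁻¹ = 1 := by
      rw [← map_mul, mul_inv_cancel, map_one]
    rw [hs, h, zero_smul, zero_mul] at h1
    exact zero_ne_one h1
  have hsw : ρ v * ρ w = s • (ρ w * ρ v) := by
    rw [← map_mul, show v * w = v * w * v⁻¹ * w⁻¹ * (w * v) by group, map_mul _ _ (w * v), hs,
      smul_mul_assoc, one_mul, map_mul]
  have hsw' : ρ v * ρ (y * w * y⁻¹) = s • (ρ (y * w * y⁻¹) * ρ v) := by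
    rw [← hfix, ← map_mul, ← map_mul, show y * v * y⁻¹ * (y * w * y⁻¹) = y * (v * w) * y⁻¹ by group,
      show y * w * y⁻¹ * (y * v * y⁻¹) = y * (w * v) * y⁻¹ by group, map_mul, map_mul, map_mul _ v w, hsw,
      map_mul _ (y * (w * v)), map_mul _ y, map_mul _ w v, mul_smul_comm, smul_mul_assoc]
  have hyw : y * w * y⁻¹ = w * (w⁻¹ * (y * w * y⁻¹)) := (mul_inv_cancel_left _ _).symm
  generalize w⁻¹ * (y * w * y⁻¹) = c at hyw ⊢
  rw [hyw, map_mul, ← mul_assoc, hsw, smul_mul_assoc] at hsw'
  simp only [mul_assoc] at hsw'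
  have h4 : ρ w * (ρ v * ρ c) = ρ w * (ρ c * ρ v) := smul_right_injective _ hs0 hsw'
  have h5 := congrArg (ρ w⁻¹ * ·) h4
  simp only [← mul_assoc, ← map_mul, inv_mul_cancel, one_mul] at h5
  rw [← map_mul, ← map_mul]
  exact h5

/-- Elements of `Q` fixed by `y` up to scalars. -/
def fixMod [Nontrivial V] (ρ : G →* Module.End K V) (Q : Subgroup G) {y : G}
    (hyQ : y ∈ Subgroup.normalizer (Q : Set G))
    (hcomm : ∀ v ∈ Q, ∀ w ∈ Q, IsScalar ρ (v * w * v⁻¹ * w⁻¹)) : Subgroup Q :=
  MonoidHom.eqLocus ((QuotientGroup.mk' (scalars ρ Q)).comp (Q.normalizerMonoidHom ⟨y, hyQ⟩).toMonoidHom)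
    (QuotientGroup.mk' (scalars ρ Q))

omit [Finite G] [FiniteDimensional K V] [Fact q.Prime] in
theorem mem_fixMod [Nontrivial V] {ρ : G →* Module.End K V} {Q : Subgroup G} {y : G}
    {hyQ : y ∈ Subgroup.normalizer (Q : Set G)}
    {hcomm : ∀ v ∈ Q, ∀ w ∈ Q, IsScalar ρ (v * w * v⁻¹ * w⁻¹)} {v : Q} :
    v ∈ fixMod ρ Q hyQ hcomm ↔ IsScalar ρ ((v : G)⁻¹ * (y * (v : G) * y⁻¹)) := by
  show ((Q.normalizerMonoidHom ⟨y, hyQ⟩ v : Q) : Q ⧸ scalars ρ Q) = (v : Q ⧸ scalars ρ Q) ↔ _
  rw [eq_comm, QuotientGroup.eq]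
  rfl

/-- The centraliser bound. -/
theorem count [IsAlgClosed K] [Nontrivial V] (ρ : G →* Module.End K V) (Q : Subgroup G) (hQ : IsPGroup q Q)
    (_hq2 : q ≠ 2) (hirr : Irred ρ Q) (hcomm : ∀ v ∈ Q, ∀ w ∈ Q, IsScalar ρ (v * w * v⁻¹ * w⁻¹))
    (hqK : (q : K) ≠ 0) (h2K : (2 : K) ≠ 0)
    (z : G) {m : ℕ} (hm : m ≠ 0) (hzQ : z ∈ Subgroup.normalizer (Q : Set G)) (hzN : z ^ 2 ^ m = 1) :
    (scalars ρ Q).index = Module.finrank K V ^ 2 ∧
      2 ^ m * Module.finrank K (Subalgebra.centralizer K ({ρ z} : Set (Module.End K V))) +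
          (scalars ρ Q).relIndex (fixMod ρ Q (Subgroup.pow_mem _ hzQ (2 ^ (m - 1))) hcomm) ≤
        (scalars ρ Q).index +
          2 ^ m * (scalars ρ Q).relIndex (fixMod ρ Q (Subgroup.pow_mem _ hzQ (2 ^ (m - 1))) hcomm) ∧
      ((∃ v ∈ Q, IsScalar ρ (v⁻¹ * (z ^ 2 ^ (m - 1) * v * (z ^ 2 ^ (m - 1))⁻¹)) ∧
          ¬ IsScalar ρ (v⁻¹ * (z * v * z⁻¹))) →
        2 ^ m * Module.finrank K (Subalgebra.centralizer K ({ρ z} : Set (Module.End K V))) + 2 ^ m +
            (scalars ρ Q).relIndex (fixMod ρ Q (Subgroup.pow_mem _ hzQ (2 ^ (m - 1))) hcomm) ≤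
          (scalars ρ Q).index +
            2 ^ m * (scalars ρ Q).relIndex (fixMod ρ Q (Subgroup.pow_mem _ hzQ (2 ^ (m - 1))) hcomm)) := by
  classical
  set y := z ^ 2 ^ (m - 1) with hy
  obtain ⟨j, hj⟩ := finrank_eq_prime_pow ρ Q hQ hirr
  have hDK : (Module.finrank K V : K) ≠ 0 := by rw [hj, Nat.cast_pow]; exact pow_ne_zero j hqK
  let M0 := scalars ρ Q
  let X := Q ⧸ M0
  haveI : Fintype X := Fintype.ofFinite X
  let rep : X → Module.End K V := fun c => ρ (c.out : G)
  have hrep : ∀ v : Q, ∃ s : K, ρ (v : G) = s • rep (v : X) := by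
    intro v
    have h1 : ((v : X).out)⁻¹ * v ∈ M0 := QuotientGroup.eq.mp (QuotientGroup.out_eq' _)
    obtain ⟨s, hs⟩ := h1
    refine ⟨s, ?_⟩
    rw [Subgroup.coe_mul, InvMemClass.coe_inv, map_mul] at hs
    show ρ (v : G) = s • ρ ((v : X).out : G)
    rw [← mul_one (ρ ((v : X).out : G)), ← mul_smul_comm, ← hs, ← mul_assoc, ← map_mul, mul_inv_cancel, map_one,
      one_mul]
  have htr : ∀ u : Q, u ∉ M0 → LinearMap.trace K V (ρ (u : G)) = 0 := by
    intro u hu
    obtain ⟨t, ht, hne⟩ : ∃ t ∈ Q, ρ t * ρ (u : G) ≠ ρ (u : G) * ρ t := by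
      by_contra hall
      push Not at hall
      exact hu (schur hirr _ hall)
    obtain ⟨s, hs⟩ := hcomm t ht u u.2
    have hcs : ρ t * ρ (u : G) = s • (ρ (u : G) * ρ t) := by
      rw [← map_mul, show t * (u : G) = t * u * t⁻¹ * (u : G)⁻¹ * (u * t) by group, map_mul _ _ ((u : G) * t), hs,
        smul_mul_assoc, one_mul, map_mul]
    have h1 : LinearMap.trace K V (ρ (u : G)) = s * LinearMap.trace K V (ρ (u : G)) := by
      have h2 := LinearMap.trace_mul_comm K (ρ t * ρ (u : G)) (ρ t⁻¹)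
      rw [← mul_assoc, ← map_mul ρ t⁻¹ t, inv_mul_cancel, map_one, one_mul] at h2
      rw [hcs, smul_mul_assoc, mul_assoc, ← map_mul ρ t t⁻¹, mul_inv_cancel, map_one, mul_one, map_smul,
        smul_eq_mul] at h2
      exact h2.symm
    have hs1 : s ≠ 1 := fun h => hne (by rw [hcs, h, one_smul])
    have h2 : (s - 1) * LinearMap.trace K V (ρ (u : G)) = 0 := by rw [sub_mul, one_mul, ← h1, sub_self]
    exact (mul_eq_zero.mp h2).resolve_left (sub_ne_zero.mpr hs1)
  have hli : LinearIndependent K rep := by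
    rw [Fintype.linearIndependent_iff]
    intro f hf c
    have h1 := congrArg (fun A : Module.End K V => LinearMap.trace K V (A * ρ (c.out : G)⁻¹)) hf
    simp only [Finset.sum_mul, map_sum, smul_mul_assoc, map_smul, zero_mul, map_zero, rep, ← map_mul] at h1
    rw [Finset.sum_eq_single c] at h1
    · rw [mul_inv_cancel, map_one, LinearMap.trace_one, smul_eq_mul] at h1
      exact (mul_eq_zero.mp h1).resolve_right hDK
    · intro d _ hd
      have h2 : d.out * c.out⁻¹ ∉ M0 := fun hm => hd (by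
        rw [← QuotientGroup.out_eq' d, ← QuotientGroup.out_eq' c, QuotientGroup.eq]
        have h6 := (scalars_normal ρ Q).conj_mem _ (inv_mem hm) d.out⁻¹
        simpa [mul_assoc] using h6)
      rw [smul_eq_mul]
      exact mul_eq_zero_of_right _ (by simpa using htr _ h2)
    · simp
  let f : Q →* Module.End K V := ρ.comp Q.subtype
  have hspan : Submodule.span K (Set.range rep) = ⊤ := by
    rw [eq_top_iff]
    have hadj : Algebra.adjoin K (Set.range f) = ⊤ := by
      refine FitHeight.subalgebra_eq_top _ fun U hU => hirr U fun m hm v hv => ?_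
      exact hU _ (Algebra.subset_adjoin ⟨⟨m, hm⟩, rfl⟩) v hv
    have h1 : Subalgebra.toSubmodule (Algebra.adjoin K (Set.range f)) = Submodule.span K (Set.range f) := by
      rw [Algebra.adjoin_eq_span, ← MonoidHom.coe_mrange, Submonoid.closure_eq]
    rw [hadj, Algebra.top_toSubmodule] at h1
    rw [h1, Submodule.span_le]
    rintro _ ⟨v, rfl⟩
    obtain ⟨s, hs⟩ := hrep v
    show ρ (v : G) ∈ _
    rw [hs]
    exact Submodule.smul_mem _ _ (Submodule.subset_span ⟨_, rfl⟩)
  have hcard : Fintype.card X = Module.finrank K V ^ 2 := by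
    have h := Module.finrank_eq_card_basis (Module.Basis.mk hli hspan.ge)
    rw [Module.finrank_linearMap] at h
    rw [← h, sq]
  have hindex : M0.index = Fintype.card X := by rw [Subgroup.index_eq_card, Nat.card_eq_fintype_card]
  -- conjugation by `z`
  have hzM : ∀ v : Q, v ∈ M0 ↔ Q.normalizerMonoidHom ⟨z, hzQ⟩ v ∈ M0 := fun v => by
    show IsScalar ρ (v : G) ↔ IsScalar ρ (z * (v : G) * z⁻¹)
    refine ⟨fun h => isScalar_conj h z, fun h => ?_⟩
    simpa [mul_assoc] using isScalar_conj h z⁻¹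
  let σ : Equiv.Perm X := (QuotientGroup.congr M0 M0 (Q.normalizerMonoidHom ⟨z, hzQ⟩) (by
    ext v
    constructor
    · rintro ⟨u, hu, rfl⟩
      exact (hzM u).mp hu
    · intro hv
      exact ⟨(Q.normalizerMonoidHom ⟨z, hzQ⟩).symm v, (hzM _).mpr (by rwa [MulEquiv.apply_symm_apply]),
        MulEquiv.apply_symm_apply _ v⟩)).toEquiv
  have hσi : ∀ (i : ℕ) (v : Q), (σ ^ i) (v : X) =
      ((⟨z ^ i * (v : G) * (z ^ i)⁻¹, (Subgroup.mem_normalizer_iff.mp (Subgroup.pow_mem _ hzQ i) _).mp v.2⟩ : Q) : X) := by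
    intro i
    induction i with
    | zero => intro v; rw [pow_zero, Equiv.Perm.one_apply]; congr 1; exact Subtype.ext (by simp)
    | succ i ih =>
      intro v
      rw [pow_succ', Equiv.Perm.mul_apply, ih]
      show ((Q.normalizerMonoidHom ⟨z, hzQ⟩ _ : Q) : X) = _
      congr 1
      refine Subtype.ext ?_
      show z * (z ^ i * (v : G) * (z ^ i)⁻¹) * z⁻¹ = z ^ (i + 1) * (v : G) * (z ^ (i + 1))⁻¹
      rw [pow_succ']; group
  have hσN : σ ^ 2 ^ m = 1 := Equiv.ext fun c => QuotientGroup.induction_on c fun v => by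
    rw [hσi]
    show _ = (v : X)
    congr 1
    exact Subtype.ext (by simp [hzN])
  have hσfix : ∀ (i : ℕ) (v : Q), (σ ^ i) (v : X) = (v : X) ↔
      IsScalar ρ ((v : G)⁻¹ * (z ^ i * (v : G) * (z ^ i)⁻¹)) := by
    intro i v
    rw [hσi, eq_comm, QuotientGroup.eq]
    rfl
  let Fx : Finset X := Finset.univ.filter fun c => (σ ^ 2 ^ (m - 1)) c = c
  have hFmem : ∀ c, c ∈ Fx ↔ (σ ^ 2 ^ (m - 1)) c = c := fun c => by simp [Fx]
  have hFcard : Fx.card = M0.relIndex (fixMod ρ Q (Subgroup.pow_mem _ hzQ (2 ^ (m - 1))) hcomm) := by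
    have h := Subgroup.relIndex_ker (fixMod ρ Q (Subgroup.pow_mem _ hzQ (2 ^ (m - 1))) hcomm) (QuotientGroup.mk' M0)
    rw [QuotientGroup.ker_mk'] at h
    rw [h, ← Fintype.card_coe, ← Nat.card_eq_fintype_card]
    refine Nat.card_congr (Equiv.subtypeEquivRight fun c => ?_)
    rw [hFmem]
    constructor
    · intro hc
      induction c using QuotientGroup.induction_on with | _ v =>
      exact ⟨v, mem_fixMod.mpr ((hσfix _ v).mp hc), rfl⟩
    · rintro ⟨v, hv, rfl⟩
      exact (hσfix _ v).mpr (mem_fixMod.mp hv)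
  have hstab : ∀ c, σ c ∈ Fx ↔ c ∈ Fx := by
    intro c
    rw [hFmem, hFmem]
    have h1 : (σ ^ 2 ^ (m - 1)) (σ c) = σ ((σ ^ 2 ^ (m - 1)) c) := by
      rw [← Equiv.Perm.mul_apply, ← Equiv.Perm.mul_apply, (Commute.pow_self σ _).eq]
    rw [h1, σ.injective.eq_iff]
  have hfree : ∀ (i : ℕ) (c : X), 0 < i → i < 2 ^ m → (σ ^ i) c = c → c ∈ Fx := by
    intro i c hi hin hfix
    rw [hFmem]
    obtain ⟨b, hbn, hb⟩ := (Nat.dvd_prime_pow Nat.prime_two).mp (Nat.gcd_dvd_right i (2 ^ m))
    have hbn' : b ≤ m - 1 := by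
      by_contra hlt
      have : b = m := by omega
      subst this
      have := Nat.le_of_dvd hi (hb ▸ Nat.gcd_dvd_left i (2 ^ b))
      omega
    have h1 : Function.IsPeriodicPt σ (2 ^ m) c := by
      show (⇑σ)^[2 ^ m] c = c
      rw [← Equiv.Perm.coe_pow, hσN]; rfl
    have h2 : Function.IsPeriodicPt σ i c := by
      show (⇑σ)^[i] c = c
      rw [← Equiv.Perm.coe_pow]; exact hfix
    have h3 := (h2.gcd h1).mul_const (2 ^ (m - 1 - b))
    rw [hb, ← pow_add, Nat.add_sub_cancel' hbn'] at h3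
    rw [Equiv.Perm.coe_pow]
    exact h3
  have hNK : ((2 ^ m : ℕ) : K) ≠ 0 := by rw [Nat.cast_pow]; exact pow_ne_zero m (by exact_mod_cast h2K)
  obtain ⟨hb1, hb2⟩ := mul_finrank_centralizer_le (Nat.two_pow_pos m) hNK (F := ρ z) (G := ρ z⁻¹)
    (by rw [← map_mul, mul_inv_cancel, map_one]) (by rw [← map_pow, hzN, map_one]) σ Fx hσN hstab hfree rep
    (fun c => by
      obtain ⟨s, hs⟩ := hrep (Q.normalizerMonoidHom ⟨z, hzQ⟩ c.out)
      refine ⟨s, ?_⟩
      rw [← map_mul, ← map_mul]
      refine hs.trans ?_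
      congr 2
      conv_rhs => rw [← QuotientGroup.out_eq' c]
      rfl) hspan
  rw [hFcard, ← hindex] at hb1 hb2
  refine ⟨hindex.trans hcard, hb1, fun ⟨v, hv, hv1, hv2⟩ => hb2 ⟨((⟨v, hv⟩ : Q) : X), ?_, fun h => hv2 ?_⟩⟩
  · rw [hFmem]; exact (hσfix _ _).mpr hv1
  · have := (hσfix 1 ⟨v, hv⟩).mp (by rwa [pow_one])
    simpa using this

end

end Cfsg.Agent.Lib.TwoPowerFPF
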